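import Mathlib
import Cfsg.Agent.Spor.J4.Main
import Cfsg.Agent.Rec.Loc

/-!
Orders of normalisers from the fixed points on the cosets of `N(V)`.
-/

set_option autoImplicit false

namespace Cfsg.Agent.J4T

open Cfsg.Agent.Spor Cfsg.Agent.Spor.MB Cfsg.Agent.Spor.J4C Subgroup Cfsg.Agent.Inv.Fz MulAction

section Abstract

variable {G X : Type*} [Group G] [MulAction G X]

/-- The points of `B` fixed by `U`. -/
def fixS (U : Subgroup G) (B : Set X) : Set X := {y | y ∈ B ∧ ∀ u ∈ U, u • y = y}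

/-- The orbit of `x` under `K`. -/
def orbS (K : Subgroup G) (x : X) : Set X := {y | ∃ a ∈ K, y = a • x}

theorem orbS_eq (K : Subgroup G) (x : X) : orbS K x = orbit K x :=
  Set.ext fun _ => ⟨fun ⟨a, ha, e⟩ => ⟨⟨a, ha⟩, e.symm⟩, fun ⟨a, e⟩ => ⟨a, a.2, e.symm⟩⟩

theorem ncard_orbS_mul (A : Subgroup G) (x : X) :
    (orbS A x).ncard * Nat.card ↥(A ⊓ stabilizer G x) = Nat.card A := by
  rw [orbS_eq, ← index_stabilizer, ← (stabilizer A x).index_mul_card]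
  congr 1
  rw [← Nat.card_congr (subgroupOfEquivOfLe (H := A ⊓ stabilizer G x) inf_le_left).toEquiv,
    inf_subgroupOf_left]
  rfl

variable [Finite G] {p : ℕ} [Fact p.Prime] {K U : Subgroup G} {x : X}

theorem fixS_orbS (hU : IsSylIn p U (K ⊓ stabilizer G x)) :
    fixS U (orbS K x) = orbS (K ⊓ normalizer (U : Set G)) x := by
  ext y
  constructor
  · rintro ⟨⟨k, hk, rfl⟩, h⟩
    have h1 : cj k⁻¹ U ≤ K ⊓ stabilizer G x := cj_le_iff.2 fun u hu =>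
      mem_inf.2 ⟨mul_mem (mul_mem (inv_mem hk) (mem_inf.1 (hU.le hu)).1) (inv_mem (inv_mem hk)), by
        change _ • x = x
        rw [inv_inv, mul_smul, mul_smul, inv_smul_eq_iff]
        exact h u hu⟩
    obtain ⟨s, hs, h2⟩ := hU.exists_cj_le (isPGroup_cj hU.isPGroup _) h1
    rw [cj_cj] at h2
    have h3 := cj_eq_iff.1 (Subgroup.eq_of_le_of_card_ge h2 (card_cj _ _).ge)
    refine ⟨(s * k⁻¹)⁻¹, inv_mem (mem_inf.2 ⟨mul_mem (mem_inf.1 hs).1 (inv_mem hk), h3⟩), ?_⟩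
    rw [mul_inv_rev, inv_inv, mul_smul, show s⁻¹ • x = x from (inv_mem hs).2]
  · rintro ⟨n, hn, rfl⟩
    refine ⟨⟨n, hn.1, rfl⟩, fun u hu => ?_⟩
    have h1 : (n⁻¹ * u * n) • x = x := (hU.le ((mem_normalizer_iff''.1 hn.2 u).1 hu)).2
    rwa [mul_smul, mul_smul, inv_smul_eq_iff] at h1

theorem ncard_fixS_mul (hU : IsSylIn p U (K ⊓ stabilizer G x)) :
    (fixS U (orbS K x)).ncard * Nat.card ↥(K ⊓ normalizer (U : Set G) ⊓ stabilizer G x) =
      Nat.card ↥(K ⊓ normalizer (U : Set G)) := by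
  rw [fixS_orbS hU, ncard_orbS_mul]

theorem ncard_fixS_modEq (hU : IsPGroup p U) (hK : U ≤ K) (x : X) :
    (fixS U (orbS K x)).ncard ≡ (orbS K x).ncard [MOD p] := by
  rw [orbS_eq]
  have : Finite (orbit K x) := (Finite.finite_mulAction_orbit x).to_subtype
  have h := (hU.comap_subtype (K := K)).card_modEq_card_fixedPoints (orbit K x)
  rw [Nat.card_coe_set_eq] at h
  refine (congrArg (· % p) ?_).trans h.symm
  rw [← Nat.card_coe_set_eq]
  exact Nat.card_congr ⟨fun y => ⟨⟨y, y.2.1⟩, fun u => Subtype.ext (y.2.2 _ u.2)⟩,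
    fun y => ⟨y.1, y.1.2, fun u hu => congrArg Subtype.val (y.2 ⟨⟨u, hK hu⟩, hu⟩)⟩, fun _ => rfl, fun _ => rfl⟩

theorem fixS_cases (hU : IsSylIn p U K) (x : X) : (fixS U (orbS K x)).ncard = 0 ∨
    ((orbS K x).ncard * Nat.card U ∣ Nat.card K ∧
      (fixS U (orbS K x)).ncard * Nat.card U ∣ Nat.card ↥(K ⊓ normalizer (U : Set G))) := by
  rcases (fixS U (orbS K x)).eq_empty_or_nonempty with h | ⟨y, hy, h⟩
  · exact Or.inl (by rw [h, Set.ncard_empty])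
  right
  rw [show orbS K x = orbS K y by rw [orbS_eq] at hy; rw [orbS_eq, orbS_eq, orbit_eq_iff.2 hy]]
  have h1 : U ≤ K ⊓ stabilizer G y := fun u hu => ⟨hU.le hu, h u hu⟩
  rw [← ncard_fixS_mul (hU.mono h1 inf_le_left), ← ncard_orbS_mul K y]
  exact ⟨Nat.mul_dvd_mul_left _ (card_dvd_of_le h1), Nat.mul_dvd_mul_left _ (card_dvd_of_le fun u hu =>
    ⟨⟨hU.le hu, le_normalizer hu⟩, h u hu⟩)⟩

end Abstract

variable {G : Type*} [Group G]

/-- The order of the normaliser of a Sylow subgroup of `2 ^ 11 : M24`. -/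
theorem full_card_norm {ψ : M24 →* G} {t : G} {Z : Finset GolayPt → G} (F : Full ψ t Z) {p : ℕ} [Fact p.Prime]
    {U : Subgroup G} (hU : IsSylIn p U F.H) : ∃ f : ℕ → ℕ, f 0 = 1 ∧
      Nat.card (normalizer (U : Set G)) =
        (∑ i ∈ Finset.range 7, f i) * Nat.card ↥(F.H ⊓ normalizer (U : Set G)) ∧
      ∀ i < 7, f i ≡ orbL i [MOD p] ∧ (f i = 0 ∨ (orbL i * Nat.card U ∣ 501397585920 ∧
        f i * Nat.card U ∣ Nat.card ↥(F.H ⊓ normalizer (U : Set G)))) := by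
  have := F.finite
  have hs : stabilizer G (Am.p0 F.H) = F.H := Subgroup.ext fun a => Am.smul_p0
  refine ⟨fun i => (fixS U (Am.Orb F.H (XX ψ Z t i))).ncard, ?_, ?_, fun i hi => ?_⟩
  · simp only [F.XX_zero, Am.Orb_one, Set.ncard_eq_one]
    refine ⟨Am.p0 F.H, Set.eq_singleton_iff_unique_mem.2 ⟨⟨rfl, fun u hu => ?_⟩, fun y hy => hy.1⟩⟩
    exact Am.smul_p0.2 (hU.le hu)
  · have h := ncard_fixS_mul (K := ⊤) (x := Am.p0 F.H) (by rwa [top_inf_eq, hs])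
    rw [top_inf_eq, hs, inf_comm, F.suborb.ncard_eq_sum F.sep] at h
    rw [← h]
    congr 1
    refine Finset.sum_congr rfl fun i _ => congrArg Set.ncard ?_
    ext y
    obtain ⟨a, rfl⟩ := Am.exists_smul_p0 y
    exact ⟨fun h => ⟨h.2, h.1.2⟩, fun h => ⟨⟨⟨a, mem_top a, rfl⟩, h.2⟩, h.1⟩⟩
  · have h1 := ncard_fixS_modEq hU.isPGroup hU.le (XX ψ Z t i • Am.p0 F.H)
    have h2 := fixS_cases hU (XX ψ Z t i • Am.p0 F.H)
    rw [F.card_H] at h2
    have h3 : (orbS F.H (XX ψ Z t i • Am.p0 F.H)).ncard = orbL i := F.ncard_Orb i hi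
    rw [h3] at h1 h2
    exact ⟨h1, h2⟩

end Cfsg.Agent.J4T
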