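import Mathlib

/-!
A presentation of `GL₂(F)` by the Bruhat decomposition; homomorphisms out of `GL₂(p)` and `PGL₂(p)`.
-/

set_option autoImplicit false

namespace Cfsg.Agent.GL2P

open Matrix

variable {F : Type*} [Field F] {X : Type*} [Group X]

/-- The relations between upper unipotent elements `x t`, diagonal elements `D a b` and the flip `w`. -/
structure GRel (x : F → X) (D : F → F → X) (w : X) : Prop where
  x_add : ∀ s t, x (s + t) = x s * x t
  D_mul : ∀ a b c d, a ≠ 0 → b ≠ 0 → c ≠ 0 → d ≠ 0 → D (a * c) (b * d) = D a b * D c d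
  D_x : ∀ a b t, a ≠ 0 → b ≠ 0 → D a b * x t = x (a * t / b) * D a b
  w_D : ∀ a b, a ≠ 0 → b ≠ 0 → w * D a b = D b a * w
  w_w : w * w = 1
  w_x : w * x 1 * w = x 1 * D (-1) 1 * w * x 1

open Classical in
/-- The image of the matrix with rows `(a, b)` and `(c, d)`. -/
noncomputable def gm (x : F → X) (D : F → F → X) (w : X) (a b c d : F) : X :=
  if c = 0 then x (b / d) * D a d else x (a / c) * D ((b * c - a * d) / c) c * w * x (d / c)

namespace GRel

variable {x : F → X} {D : F → F → X} {w : X} (h : GRel x D w)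

include h

theorem x_zero : x 0 = 1 := by
  have := h.x_add 0 0
  rw [add_zero] at this
  exact left_eq_mul.1 this

theorem D_one : D 1 1 = 1 := by
  have := h.D_mul 1 1 1 1 one_ne_zero one_ne_zero one_ne_zero one_ne_zero
  rw [mul_one] at this
  exact left_eq_mul.1 this

theorem D_mul' {a b c d e f : F} (ha : a ≠ 0) (hb : b ≠ 0) (hc : c ≠ 0) (hd : d ≠ 0) (h1 : a * c = e)
    (h2 : b * d = f) (y : X) : D a b * (D c d * y) = D e f * y := by
  rw [← mul_assoc, ← h.D_mul _ _ _ _ ha hb hc hd, h1, h2]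

theorem D_x' {a b s t : F} (ha : a ≠ 0) (hb : b ≠ 0) (h1 : a * t / b = s) (y : X) :
    D a b * (x t * y) = x s * (D a b * y) := by
  rw [← mul_assoc, h.D_x _ _ _ ha hb, h1, mul_assoc]

theorem w_D' {a b : F} (ha : a ≠ 0) (hb : b ≠ 0) (y : X) : w * (D a b * y) = D b a * (w * y) := by
  rw [← mul_assoc, h.w_D _ _ ha hb, mul_assoc]

theorem w_w' (y : X) : w * (w * y) = y := by rw [← mul_assoc, h.w_w, one_mul]

theorem x_add' {s t r : F} (h1 : s + t = r) (y : X) : x s * (x t * y) = x r * y := by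
  rw [← mul_assoc, ← h.x_add, h1]

theorem w_xt {t : F} (ht : t ≠ 0) (y : X) :
    w * (x t * (w * y)) = x t⁻¹ * (D (-t⁻¹) t * (w * (x t⁻¹ * y))) := by
  have o : (1 : F) ≠ 0 := one_ne_zero
  have h1 : ∀ y, w * (x 1 * (w * y)) = x 1 * (D (-1) 1 * (w * (x 1 * y))) := fun y => by
    have := congrArg (· * y) h.w_x
    simpa only [mul_assoc] using this
  obtain ⟨y, rfl⟩ : ∃ y', y = D 1 t * y' := ⟨(D 1 t)⁻¹ * y, by group⟩
  rw [h.w_D' o ht, ← h.D_x' (t := 1) (s := t) ht o (by field_simp), h.w_D' ht o, h1,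
    h.D_x' (s := t⁻¹) o ht (by field_simp), h.D_mul' (e := -1) (f := t) o ht (neg_ne_zero.2 o) o (by ring) (by ring),
    ← h.D_x' (t := 1) (s := t⁻¹) o ht (by field_simp), h.w_D' o ht,
    h.D_mul' (e := -1) (f := t) (neg_ne_zero.2 (inv_ne_zero ht)) ht ht o (by field_simp) (by ring)]

theorem gm_up {a b c d : F} (hd : a * d - b * c ≠ 0) (t : F) :
    gm x D w (a + t * c) (b + t * d) c d = x t * gm x D w a b c d := by
  unfold gm
  split_ifs with hc
  · subst hc
    have : d ≠ 0 := fun e => hd (by simp [e])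
    rw [h.x_add' (r := (b + t * d) / d) (by field_simp; ring), mul_zero, add_zero]
  · simp only [mul_assoc]
    rw [h.x_add' (r := (a + t * c) / c) (by field_simp; ring)]
    congr 4
    ring

theorem gm_diag {a b c d p q : F} (hd : a * d - b * c ≠ 0) (hp : p ≠ 0) (hq : q ≠ 0) :
    gm x D w (p * a) (p * b) (q * c) (q * d) = D p q * gm x D w a b c d := by
  unfold gm
  by_cases hc : c = 0
  · subst hc
    have h1 : d ≠ 0 := fun e => hd (by simp [e])
    have h2 : a ≠ 0 := fun e => hd (by simp [e])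
    rw [if_pos (mul_zero q), if_pos rfl, h.D_x' (s := p * b / (q * d)) hp hq (by field_simp),
      ← h.D_mul _ _ _ _ hp hq h2 h1]
  · have h1 : (b * c - a * d) / c ≠ 0 := div_ne_zero (fun e => hd (by linear_combination -e)) hc
    rw [if_neg (mul_ne_zero hq hc), if_neg hc]
    simp only [mul_assoc]
    rw [h.D_x' (s := p * a / (q * c)) hp hq (by field_simp),
      h.D_mul' (e := (p * (b * (q * c)) - p * (a * (q * d))) / (q * c)) hp hq h1 hc (by field_simp) rfl,
      mul_div_mul_left _ _ hq]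

theorem gm_w {a b c d : F} (hd : a * d - b * c ≠ 0) : gm x D w c d a b = w * gm x D w a b c d := by
  unfold gm
  by_cases hc : c = 0
  · subst hc
    have h1 : d ≠ 0 := fun e => hd (by simp [e])
    have h2 : a ≠ 0 := fun e => hd (by simp [e])
    rw [if_neg h2, if_pos rfl, zero_div, h.x_zero, one_mul, ← mul_one (D a d),
      ← h.D_x' (t := b / a) h2 h1 (by field_simp), h.w_D' h2 h1, mul_one, mul_assoc]
    congr 2
    field_simp
    ring
  · by_cases ha : a = 0
    · subst ha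
      have h1 : b ≠ 0 := fun e => hd (by simp [e])
      rw [if_pos rfl, if_neg hc, zero_div, h.x_zero, one_mul, show (b * c - 0 * d) / c = b by field_simp; ring,
        mul_assoc, h.w_D' h1 hc, h.w_w', h.D_x _ _ _ hc h1]
      congr 2
      field_simp
    · have h1 : (b * c - a * d) / c ≠ 0 := div_ne_zero (fun e => hd (by linear_combination -e)) hc
      have h2 : a / c ≠ 0 := div_ne_zero ha hc
      rw [if_neg ha, if_neg hc]
      simp only [mul_assoc]
      rw [← h.w_D' hc h1, h.w_xt h2, ← h.D_x' (t := (b * c - a * d) / (a * c)) hc h1 (by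
          have : c * b - a * d ≠ 0 := fun e => hd (by linear_combination -e)
          rw [mul_comm b c]
          field_simp), h.w_D' hc h1,
        h.D_mul' (e := (d * a - c * b) / a) (f := a) (neg_ne_zero.2 (inv_ne_zero h2)) h2 h1 hc
          (by field_simp; ring) (by field_simp), ← h.x_add, inv_div]
      congr 4
      field_simp
      ring

theorem gm_mul {a b c d a' b' c' d' : F} (hd : a * d - b * c ≠ 0) (hd' : a' * d' - b' * c' ≠ 0) :
    gm x D w (a * a' + b * c') (a * b' + b * d') (c * a' + d * c') (c * b' + d * d') =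
      gm x D w a b c d * gm x D w a' b' c' d' := by
  by_cases hc : c = 0
  · subst hc
    have h1 : d ≠ 0 := fun e => hd (by simp [e])
    have h2 : a ≠ 0 := fun e => hd (by simp [e])
    have h3 : a * a' * (d * d') - a * b' * (d * c') ≠ 0 := fun e =>
      mul_ne_zero (mul_ne_zero h1 h2) hd' (by linear_combination e)
    rw [show gm x D w a b 0 d = x (b / d) * D a d from if_pos rfl, mul_assoc, ← h.gm_diag hd' h2 h1, ← h.gm_up h3]
    congr 1 <;> field_simp <;> ring
  · have h0 : b * c - a * d ≠ 0 := fun e => hd (by linear_combination -e)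
    have h1 : (b * c - a * d) / c ≠ 0 := div_ne_zero h0 hc
    have h2 : (a' + d / c * c') * d' - (b' + d / c * d') * c' ≠ 0 := fun e => hd' (by linear_combination e)
    have h3 : c' * (b' + d / c * d') - d' * (a' + d / c * c') ≠ 0 := fun e => hd' (by linear_combination -e)
    have h4 : (b * c - a * d) / c * c' * (c * (b' + d / c * d')) -
        (b * c - a * d) / c * d' * (c * (a' + d / c * c')) ≠ 0 := fun e =>
      mul_ne_zero (mul_ne_zero h1 hc) h3 (by linear_combination e)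
    rw [show gm x D w a b c d = x (a / c) * D ((b * c - a * d) / c) c * w * x (d / c) from if_neg hc]
    simp only [mul_assoc]
    rw [← h.gm_up hd', ← h.gm_w h2, ← h.gm_diag h3 h1 hc, ← h.gm_up h4]
    congr 1 <;> field_simp <;> ring

omit h in
theorem det_ne (g : GL (Fin 2) F) : g 0 0 * g 1 1 - g 0 1 * g 1 0 ≠ 0 := by
  rw [← Matrix.det_fin_two]
  exact g.det_ne_zero

/-- The homomorphism. -/
noncomputable def hom : GL (Fin 2) F →* X :=
  MonoidHom.mk' (fun g => gm x D w (g 0 0) (g 0 1) (g 1 0) (g 1 1)) fun g k => by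
    rw [← h.gm_mul (det_ne g) (det_ne k)]
    simp [Matrix.mul_apply, Fin.sum_univ_two]

theorem hom_apply (g : GL (Fin 2) F) : h.hom g = gm x D w (g 0 0) (g 0 1) (g 1 0) (g 1 1) := rfl

theorem x_comm (s t : F) : x s * x t = x t * x s := by rw [← h.x_add, ← h.x_add, add_comm]

theorem comm_of {s : F} (hs : s ≠ 0) {t : F} (e : w * x s * w = x t) : x 1 * (w * x 1 * w) = w * x 1 * w * x 1 := by
  have o : (1 : F) ≠ 0 := one_ne_zero
  have h1 : w * x 1 * w * D s 1 = x (s * t) * D s 1 := by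
    calc _ = w * (x 1 * (D 1 s * w)) := by rw [← h.w_D _ _ hs o]; simp only [mul_assoc]
      _ = D s 1 * (w * x s * w) := by
        rw [← h.D_x' (t := s) o hs (by field_simp), h.w_D' o hs, mul_assoc]
      _ = _ := by rw [e, h.D_x _ _ _ hs o, div_one]
  rw [mul_right_cancel h1, h.x_comm]

/-- The kernel consists of scalars. -/
theorem scalar_of_eq_one (hn : x 1 * (w * x 1 * w) ≠ w * x 1 * w * x 1) (hx : ∀ s, x s = 1 → s = 0)
    {g : GL (Fin 2) F} (hg : h.hom g = 1) : g 0 1 = 0 ∧ g 1 0 = 0 ∧ g 0 0 = g 1 1 ∧ D (g 0 0) (g 0 0) = 1 := by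
  have hd := det_ne g
  rw [hom_apply] at hg
  generalize g 0 0 = a, g 0 1 = b, g 1 0 = c, g 1 1 = d at hd hg
  unfold gm at hg
  split_ifs at hg with hc
  · subst hc
    have h1 : d ≠ 0 := fun e => hd (by simp [e])
    have h2 : a ≠ 0 := fun e => hd (by simp [e])
    have h3 : D a d = (x (b / d))⁻¹ := eq_inv_of_mul_eq_one_right hg
    have h4 := h.D_x a d 1 h2 h1
    rw [h3, inv_mul_eq_iff_eq_mul, ← mul_assoc, h.x_comm, mul_inv_cancel_right,
      show a * 1 / d = 1 + (a - d) / d by field_simp; ring, h.x_add, left_eq_mul] at h4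
    obtain rfl : a = d := by simpa [h1, sub_eq_zero] using hx _ h4
    have h5 := h.w_D a a h2 h2
    rw [h3, mul_inv_eq_iff_eq_mul, mul_assoc, eq_inv_mul_iff_mul_eq] at h5
    have h6 : b / a = 0 := by
      by_contra h6
      exact hn (h.comm_of h6 (t := b / a) (by rw [← h5, mul_assoc, h.w_w, mul_one]))
    rw [h6, h.x_zero, one_mul] at hg
    exact ⟨by simpa [h2] using h6, rfl, rfl, hg⟩
  · exfalso
    have h1 : (b * c - a * d) / c ≠ 0 := div_ne_zero (fun e => hd (by linear_combination -e)) hc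
    have h2 : x (a / c) * D ((b * c - a * d) / c) c * w = (x (d / c))⁻¹ := eq_inv_of_mul_eq_one_left hg
    have h3 : x (a / c) * D ((b * c - a * d) / c) c * (w * x 1 * w) =
        x 1 * (x (a / c) * D ((b * c - a * d) / c) c) := by
      have h4 : x (a / c) * D ((b * c - a * d) / c) c = (x (d / c))⁻¹ * w := by
        rw [← h2, mul_assoc _ w, h.w_w, mul_one]
      rw [h4, mul_assoc, mul_assoc, h.w_w', ← mul_assoc, ← mul_assoc, mul_left_inj, inv_mul_eq_iff_eq_mul,
        ← mul_assoc, h.x_comm, mul_inv_cancel_right]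
    have h5 := h.D_x _ _ (c / ((b * c - a * d) / c)) h1 hc
    rw [mul_div_cancel₀ _ h1, div_self hc] at h5
    rw [← mul_assoc (x 1), h.x_comm 1, mul_assoc (x _), mul_assoc (x _), mul_right_inj, ← h5, mul_right_inj] at h3
    exact hn (h.comm_of one_ne_zero h3)

theorem hom_scalar {g : GL (Fin 2) F} (hg : g ∈ Subgroup.center (GL (Fin 2) F)) :
    g 0 0 ≠ 0 ∧ h.hom g = D (g 0 0) (g 0 0) := by
  obtain ⟨a, ha⟩ := Matrix.GeneralLinearGroup.mem_center_iff_val_mem_range_scalar.1 hg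
  have hd := det_ne g
  rw [hom_apply]
  rw [← ha] at hd ⊢
  simp only [scalar_apply, diagonal_apply_eq, diagonal_apply_ne _ (show (0 : Fin 2) ≠ 1 by decide),
    diagonal_apply_ne _ (show (1 : Fin 2) ≠ 0 by decide)] at hd ⊢
  refine ⟨fun e => hd (by simp [e]), ?_⟩
  rw [gm, if_pos rfl, zero_div, h.x_zero, one_mul]

omit h in
theorem mem_center {g : GL (Fin 2) F} (h1 : g 0 1 = 0) (h2 : g 1 0 = 0) (h3 : g 0 0 = g 1 1) :
    g ∈ Subgroup.center (GL (Fin 2) F) :=
  Matrix.GeneralLinearGroup.mem_center_iff_val_mem_range_scalar.2 ⟨g 0 0, by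
    ext i j
    fin_cases i <;> fin_cases j <;> simp [h1, h2, h3]⟩

end GRel

/-- The relations over a prime field, from generators. -/
theorem exists_grel {p : ℕ} [Fact p.Prime] {r : (ZMod p)ˣ} (hr : ∀ a, a ∈ Subgroup.zpowers r) {k m : ℕ}
    (hk : (r : ZMod p) = k) (hm : (r : ZMod p) ^ m = -1) {u h w : X} (h1 : u ^ p = 1) (h2 : h ^ (p - 1) = 1)
    (h3 : w * w = 1) (h4 : h * u = u ^ k * h) (h5 : w * h * w * u ^ k = u * (w * h * w))
    (h6 : h * (w * h * w) = w * h * w * h) (h7 : w * u * w = u * h ^ m * w * u) :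
    ∃ (x : ZMod p → X) (D : ZMod p → ZMod p → X), GRel x D w ∧ (∀ s, x s = u ^ s.val) ∧
      ∀ a : ZMod p, a ≠ 0 → ∃ n : ℕ, a = (r : ZMod p) ^ n ∧ D a a = (h * (w * h * w)) ^ n := by
  classical
  have ho : orderOf h ∣ orderOf r := by
    rw [orderOf_eq_card_of_forall_mem_zpowers hr, Nat.card_eq_fintype_card, ZMod.card_units]
    exact orderOf_dvd_of_pow_eq_one h2
  let χ := monoidHomOfForallMemZpowers hr ho
  let L : ZMod p → X := fun a => if h : a = 0 then 1 else χ (Units.mk0 a h)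
  have hL : ∀ n : ℕ, L ((r : ZMod p) ^ n) = h ^ n := fun n => by
    have e : (r : ZMod p) ^ n ≠ 0 := pow_ne_zero _ r.ne_zero
    rw [show L _ = χ (Units.mk0 _ e) from dif_neg e, show Units.mk0 _ e = r ^ n from Units.ext (by simp), map_pow,
      monoidHomOfForallMemZpowers_apply_gen]
  have hn : ∀ a : ZMod p, a ≠ 0 → ∃ n : ℕ, a = (r : ZMod p) ^ n := fun a ha => by
    obtain ⟨n, hn⟩ := (mem_powers_iff_mem_zpowers.2 (hr (Units.mk0 a ha)))
    exact ⟨n, by simpa using (congrArg Units.val hn).symm⟩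
  have hx : ∀ n : ℕ, u ^ (n : ZMod p).val = u ^ n := fun n => by rw [ZMod.val_natCast, ← pow_eq_pow_mod n h1]
  have hw : ∀ n : ℕ, w * h ^ n * w = (w * h * w) ^ n := fun n => by
    have := conj_pow (a := w) (b := h) (i := n)
    rw [inv_eq_of_mul_eq_one_left h3] at this
    exact this.symm
  have c1 : Commute h (w * h * w) := h6
  have a1 : ∀ (n : ℕ) (t : ZMod p), h ^ n * u ^ t.val = u ^ ((r : ZMod p) ^ n * t).val * h ^ n := fun n => by
    induction n with
    | zero => simp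
    | succ n ih =>
      intro t
      rw [pow_succ, mul_assoc, (SemiconjBy.pow_right h4 t.val).eq, ← pow_mul, ← hx, ← mul_assoc, ih, mul_assoc,
        Nat.cast_mul, ZMod.natCast_zmod_val, ← hk, pow_succ, mul_assoc]
  have a2 : ∀ (n : ℕ) (t : ZMod p), (w * h * w) ^ n * u ^ ((r : ZMod p) ^ n * t).val = u ^ t.val * (w * h * w) ^ n :=
    fun n => by
    induction n with
    | zero => simp
    | succ n ih =>
      intro t
      have e := (SemiconjBy.pow_right h5 ((r : ZMod p) ^ n * t).val).eq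
      rw [← pow_mul, ← hx, Nat.cast_mul, ZMod.natCast_zmod_val, ← hk, ← mul_assoc, ← pow_succ'] at e
      rw [pow_succ (w * h * w), mul_assoc, e, ← mul_assoc, ih, mul_assoc]
  refine ⟨fun s => u ^ s.val, fun a b => L a * (w * L b * w), ⟨fun s t => ?_, fun a b c d ha hb hc hd => ?_,
    fun a b t ha hb => ?_, fun a b ha hb => ?_, h3, ?_⟩, fun _ => rfl, fun a ha => ?_⟩
  · rw [← pow_add, ← hx (_ + _), Nat.cast_add, ZMod.natCast_zmod_val, ZMod.natCast_zmod_val]
  · obtain ⟨⟨i, rfl⟩, ⟨j, rfl⟩, ⟨k, rfl⟩, ⟨l, rfl⟩⟩ := And.intro (hn a ha) (And.intro (hn b hb) (And.intro (hn c hc) (hn d hd)))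
    simp only [← pow_add, hL, hw]
    rw [pow_add, pow_add, (c1.pow_pow k j).mul_mul_mul_comm]
  · obtain ⟨⟨i, rfl⟩, ⟨j, rfl⟩⟩ := And.intro (hn a ha) (hn b hb)
    simp only [hL, hw]
    have e := a2 j (t / (r : ZMod p) ^ j)
    rw [mul_div_cancel₀ _ hb] at e
    rw [mul_assoc, e, ← mul_assoc, a1, mul_assoc, mul_div_assoc]
  · obtain ⟨⟨i, rfl⟩, ⟨j, rfl⟩⟩ := And.intro (hn a ha) (hn b hb)
    simp only [hL]
    rw [hw j, (c1.pow_pow i j).eq, ← hw j]
    simp only [mul_assoc, h3, mul_one]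
    rw [← mul_assoc w w, h3, one_mul]
  · have e := hL 0
    rw [pow_zero, pow_zero] at e
    simp only [← hm, hL, e, mul_one, h3, ZMod.val_one, pow_one]
    exact h7
  · obtain ⟨i, rfl⟩ := hn a ha
    exact ⟨i, rfl, by simp only [hL, hw, c1.mul_pow]⟩

theorem eq_zero_of_pow_val {p : ℕ} [Fact p.Prime] {u : X} (h1 : u ^ p = 1) (h2 : u ≠ 1) {s : ZMod p}
    (h : u ^ s.val = 1) : s = 0 := by
  have := orderOf_dvd_of_pow_eq_one h
  rw [orderOf_eq_prime h1 h2] at this
  exact (ZMod.val_eq_zero s).1 (Nat.eq_zero_of_dvd_of_lt this (ZMod.val_lt s))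

/-- A copy of `PGL₂(p)`. -/
theorem exists_PGL2 {p : ℕ} [Fact p.Prime] {r : (ZMod p)ˣ} (hr : ∀ a, a ∈ Subgroup.zpowers r) {k m : ℕ}
    (hk : (r : ZMod p) = k) (hm : (r : ZMod p) ^ m = -1) {u h w : X} (h1 : u ^ p = 1) (h2 : h ^ (p - 1) = 1)
    (h3 : w * w = 1) (h4 : h * u = u ^ k * h) (h5 : h * (w * h * w) = 1) (h7 : w * u * w = u * h ^ m * w * u)
    (h8 : u * (w * u * w) ≠ w * u * w * u) :
    ∃ K : Subgroup X, Nonempty (K ≃* GL (Fin 2) (ZMod p) ⧸ Subgroup.center (GL (Fin 2) (ZMod p))) := by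
  have e := eq_inv_of_mul_eq_one_right h5
  obtain ⟨x, D, hR, hx, hD⟩ := exists_grel hr hk hm h1 h2 h3 h4
    (by rw [e, inv_mul_eq_iff_eq_mul, ← mul_assoc, h4, mul_inv_cancel_right]) (by rw [e]; group) h7
  have x1 : x 1 = u := by rw [hx, ZMod.val_one, pow_one]
  have hker : hR.hom.ker = Subgroup.center _ := by
    ext g
    refine ⟨fun hg => ?_, fun hg => ?_⟩
    · obtain ⟨k1, k2, k3, -⟩ := hR.scalar_of_eq_one (x1 ▸ h8)
        (fun s hs => eq_zero_of_pow_val h1 (fun e => h8 (by simp [e])) (hx s ▸ hs)) hg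
      exact GRel.mem_center k1 k2 k3
    · obtain ⟨k1, k2⟩ := hR.hom_scalar hg
      obtain ⟨n, -, k3⟩ := hD _ k1
      rw [MonoidHom.mem_ker, k2, k3, h5, one_pow]
  exact ⟨hR.hom.range, ⟨(QuotientGroup.quotientKerEquivRange hR.hom).symm.trans
    (QuotientGroup.quotientMulEquivOfEq hker)⟩⟩

/-- A copy of `GL₂(3)`. -/
theorem exists_GL23 {u h w : X} (h1 : u ^ 3 = 1) (h2 : h * h = 1) (h3 : w * w = 1) (h4 : h * u = u ^ 2 * h)
    (h5 : w * h * w * u ^ 2 = u * (w * h * w)) (h6 : h * (w * h * w) = w * h * w * h)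
    (h7 : w * u * w = u * h * w * u) (h8 : u * (w * u * w) ≠ w * u * w * u) (h9 : h * (w * h * w) ≠ 1) :
    ∃ f : GL (Fin 2) (ZMod 3) →* X, Function.Injective f := by
  have hr : ∀ a : (ZMod 3)ˣ, a ∈ Subgroup.zpowers (-1) := fun a => by
    have : ∀ a : (ZMod 3)ˣ, a = 1 ∨ a = -1 := by decide
    rcases this a with rfl | rfl
    exacts [Subgroup.one_mem _, Subgroup.mem_zpowers _]
  obtain ⟨x, D, hR, hx, hD⟩ := exists_grel hr (k := 2) (m := 1) (by decide) (by decide) h1 (by rw [← h2, sq]) h3 h4 h5 h6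
    (by rw [pow_one]; exact h7)
  have x1 : x 1 = u := by rw [hx, ZMod.val_one, pow_one]
  refine ⟨hR.hom, (injective_iff_map_eq_one _).2 fun g hg => ?_⟩
  obtain ⟨k1, k2, k3, k4⟩ := hR.scalar_of_eq_one (x1 ▸ h8)
    (fun s hs => eq_zero_of_pow_val h1 (fun e => h8 (by simp [e])) (hx s ▸ hs)) hg
  obtain ⟨n, k5, k6⟩ := hD _ (hR.hom_scalar (GRel.mem_center k1 k2 k3)).1
  have k7 : (h * (w * h * w)) ^ 2 = 1 := by
    rw [Commute.mul_pow h6, sq, sq, h2, one_mul]
    simp only [mul_assoc]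
    rw [← mul_assoc w w, h3, one_mul, ← mul_assoc h h, h2, one_mul, h3]
  have k8 : g 0 0 = 1 := by
    rcases Nat.even_or_odd' n with ⟨j, rfl | rfl⟩
    · rw [k5, pow_mul]; simp
    · rw [k4, pow_succ, pow_mul, k7, one_pow, one_mul] at k6
      exact absurd k6.symm h9
  ext i j
  fin_cases i <;> fin_cases j <;> simp [k1, k2, ← k3, k8]

end Cfsg.Agent.GL2P
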