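import Mathlib
import Cfsg.Agent.J4T.Loc57
import Cfsg.Agent.Blk.ZStar
import Cfsg.Agent.GT.CoprimeGen
import Cfsg.Agent.GT.PPrimeCore
import Cfsg.Agent.Rec.Lin2

/-!
The centraliser of an element of order three.
-/

set_option autoImplicit false

namespace Cfsg.Agent.J4T

open Cfsg.Agent.Spor Cfsg.Agent.Spor.MB Cfsg.Agent.Spor.J4C Subgroup Cfsg.Agent.Inv.Fz
open scoped commutatorElement

variable {G : Type*} [Group G]

namespace Lc

theorem comm_of_pm {p h k : G} (hh : h * p * h⁻¹ = p ∨ h * p * h⁻¹ = p⁻¹) (hk : k * p * k⁻¹ = p ∨ k * p * k⁻¹ = p⁻¹) :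
    ⁅h⁻¹, k⁻¹⁆ * p = p * ⁅h⁻¹, k⁻¹⁆ := by
  have a : ∀ x y : G, x * y⁻¹ * x⁻¹ = (x * y * x⁻¹)⁻¹ := fun x y => by group
  have e : h * (k * p * k⁻¹) * h⁻¹ = k * (h * p * h⁻¹) * k⁻¹ := by
    rcases hh with a1 | a1 <;> rcases hk with a2 | a2 <;> simp only [a1, a2, a, inv_inv]
  calc _ = h⁻¹ * k⁻¹ * (h * (k * p * k⁻¹) * h⁻¹) * (h * k) := by rw [commutatorElement_def]; group
    _ = _ := by rw [e, commutatorElement_def]; group

theorem le_cent_of_isolated [Finite G] {K : Subgroup G} {z : G} (hz : orderOf z = 2) (hzK : z ∈ K)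
    (h1 : ∀ k ∈ K, k * z * k⁻¹ * z = z * (k * z * k⁻¹) → k * z * k⁻¹ = z)
    (h2 : ∀ O : Subgroup G, Odd (Nat.card O) → K ≤ normalizer (O : Set G) → O ≤ centralizer {z}) :
    K ≤ centralizer {z} := fun k hk => by
  have h3 : Cfsg.IsIsolatedInvolution (⟨z, hzK⟩ : K) :=
    ⟨(orderOf_coe _).symm.trans hz, fun g h => Subtype.ext (h1 g g.2 (congrArg Subtype.val h.symm.eq))⟩
  have h4 := Rec.mem_cen.1 (h2 ((Cfsg.oddCore K).map K.subtype)
    (by rw [card_map_of_injective K.subtype_injective]; exact GT.odd_card_oddCore)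
    (fun x hx => mem_normalizer_of_conj_mem (by
      rintro _ ⟨y, hy, rfl⟩
      exact ⟨_, Normal.conj_mem inferInstance y hy ⟨x, hx⟩, rfl⟩))
    ⟨_, h3.commutator_mem_oddCore ⟨k, hk⟩, rfl⟩)
  have h5 : z⁻¹ = z := inv_eq_of_mul_eq_one_right (by rw [← sq, ← hz, pow_orderOf_eq_one])
  replace h4 : z * k * z⁻¹ * k⁻¹ * z = z * (z * k * z⁻¹ * k⁻¹) := h4
  rw [h5] at h4
  exact Rec.mem_cen'.2 (h1 k hk (mul_left_cancel (a := z) (by simpa only [mul_assoc] using h4)))

theorem mem_M22_of {g : PG} (hg : g ∈ M24) (h : band (Nat.beq (ap (code g) 23) 23) (Nat.beq (ap (code g) 0) 0) = true) :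
    g ∈ Cfsg.Spor.M22 := by
  rw [band_iff, nbeq_iff, nbeq_iff] at h
  have a : ix none = 23 ∧ ix (some 0) = 0 := by decide +kernel
  exact HypA.mem_M22.2 ⟨hg, ix_injective (by rw [← ap_code_ix, a.1, h.1]), ix_injective (by rw [← ap_code_ix, a.2, h.2])⟩

theorem conj_M22 {g : PG} (hg : g ∈ Cfsg.Spor.M22) (h : orderOf g = 2) :
    ∃ k ∈ Cfsg.Spor.M22, k * toPerm (pL 6) * k⁻¹ = g := by
  have a : ∀ {gs : List ℕ}, allL (fun c => Bool.and (inM24 c) (band (Nat.beq (ap c 23) 23) (Nat.beq (ap c 0) 0))) gs =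
      true → Gens Cfsg.Spor.M22 gs := gens_of_check _ fun _ => mem_M22_of
  refine (two_classes (p := 2) (k := 7) (b := toPerm (pL 6)) (kb := [])
    (a (gs := [966309314668518553556560247098754144, 967365062702322345226002731013015648,
      983273841186934920105689577935639648]) (by decide +kernel)) (fuel := 250)
    (cert := 0x1300302200213000330030122000023022130000300220130022300030230003120001312000033003201300030230030220121200000130030223003003012200002302213000030201302300030230003122000033003201300030230030222120000230022000321300033003200023021200002201300033012111)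
    (by decide +kernel) (by rw [Golay.card_M22]; exact factorization_eq_of (by norm_num) (by norm_num) (by norm_num))
    (a (gs := [980340389475195709444232800351241376, 984285813825547880393919657007420480, 967802363372229022586161087983495200, 967798670553691198221454406316333728, 980627095262312877138202126787528256, 966640718740187674156046951527170208, 981793552125258256714914289466816928, 960791255777286646506516386416986624, 971377327428778418954591562216061472, 981797235230866364122417089308900384, 984818244535754528103549039458486304, 970520338708998801353299275901371648, 965263012756460789742788523929408576, 973977373960279789282571203035506176, 976609773073814533130959694497629632, 972587950955817127156024042422584416, 974219397505406606310199171340451520, 972607881760249532700423329998640672, 974174533242847246232630994510925952, 972587586960681904561024608260670624, 974376546565791871499177478105281856, 963602400280220917886528662107502656,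 974172058678417448990516055990583584, 963800154387064853854437068689815648, 972887696205212045315338555492878496, 981997008882413922364602322167470560, 961363610022126974658743221642135968, 964032146381120422314788039701334112, 973727527950206366511261727769123296, 973988407797143143257388729874616960, 963582130261185741911914199045933504, 964046510025216699383369721277746624, 972507895246093710498953060130340896, 972875705121444083752957861326949536, 984799016615329826603595760505294880]) (by decide +kernel))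
    (a rfl) ?_ hg h).elim id id
  rw [code_toPerm (by decide +kernel)]
  decide +kernel

end Lc

/-- The centraliser of `z` and `p`. -/
abbrev KK (z p : G) : Subgroup G := centralizer {z} ⊓ centralizer {p}

/-- Its image in the stabiliser of the duad. -/
def θ {z : G} (π : centralizer ({z} : Set G) →* PG) (p : G) : KK z p →* PG := π.comp (inclusion inf_le_left)

namespace StX

variable [Finite G] {z : G} {g l : ℕ → G} {π : centralizer ({z} : Set G) →* PG} (s : StX z π g l)

include s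

omit [Finite G] in
theorem zp_pow : (z * l 0) ^ 3 = z ∧ (z * l 0) ^ 4 = l 0 := by
  have h : Commute z (l 0) := s.st.pH.symm
  have h1 : (z * l 0) ^ 3 = z := by rw [h.mul_pow, VB.p3 s, mul_one, pow_succ, sq, s.q.z_sq, one_mul]
  exact ⟨h1, by rw [pow_succ, h1, ← mul_assoc, s.q.z_sq, one_mul]⟩

omit [Finite G] in
theorem orderOf_z : orderOf z = 2 := orderOf_eq_prime (by rw [sq, s.q.z_sq]) s.q.z_ne

theorem exists_of_th {x : KK z (l 0)} (h : θ π (l 0) x = 1) :
    ∃ j < 3, (x : G) = l 0 ^ j ∨ (x : G) = z * l 0 ^ j := by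
  obtain ⟨q, hq, j, hj, e⟩ := Let.exists_of_ker s.st h
  replace e : (x : G) = q * l 0 ^ j := e
  have h1 : Commute (q * l 0 ^ j) (l 0) := e ▸ Rec.mem_cen.1 x.2.2
  have h2 := h1.mul_left ((Commute.refl (l 0)).pow_left j).inv_left
  rw [mul_inv_cancel_right] at h2
  exact ⟨j, hj, (s.st.fpf q hq h2.symm).imp (fun a => by rw [e, a, one_mul]) fun a => by rw [e, a]⟩

theorem th_eq_one {x : KK z (l 0)} : θ π (l 0) x = 1 ↔ (x : G) ∈ zpowers (z * l 0) := by
  refine ⟨fun h => ?_, fun h => (s.st.ker _).2 ((zpowers_le (H := QG g ⊔ zpowers (l 0))).2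
    (mul_mem (mem_sup_left s.st.es.z_mem) (mem_sup_right (mem_zpowers _))) h)⟩
  have h1 : z ∈ zpowers (z * l 0) := ⟨(3 : ℕ), (zpow_natCast _ _).trans s.zp_pow.1⟩
  have h2 : l 0 ∈ zpowers (z * l 0) := ⟨(4 : ℕ), (zpow_natCast _ _).trans s.zp_pow.2⟩
  obtain ⟨j, -, e | e⟩ := s.exists_of_th h <;> rw [e]
  exacts [pow_mem h2 j, mul_mem h1 (pow_mem h2 j)]

theorem inv_of_th {x : KK z (l 0)} (h : θ π (l 0) x = 1) (h2 : (x : G) * x = 1) : (x : G) = 1 ∨ (x : G) = z := by
  obtain ⟨j, hj, e⟩ := s.exists_of_th h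
  have h3 : l 0 ^ (j * 2) = 1 := by
    rw [pow_mul]
    rcases e with e | e <;> rw [e, ← sq] at h2
    · exact h2
    · rwa [(Commute.pow_right s.st.pH.symm j).mul_pow, sq, s.q.z_sq, one_mul] at h2
  have h4 := orderOf_dvd_of_pow_eq_one h3
  rw [s.st.p3] at h4
  obtain rfl : j = 0 := by omega
  simpa using e

theorem M22_le_range : Cfsg.Spor.M22 ≤ (θ π (l 0)).range := by
  rw [← HypA.commutator_M22, commutator_le]
  intro a ha b hb
  obtain ⟨h, h1, h2⟩ := Let.frattini s.st (HypA.le_D22 (inv_mem ha))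
  obtain ⟨k, k1, k2⟩ := Let.frattini s.st (HypA.le_D22 (inv_mem hb))
  refine ⟨⟨⁅h⁻¹, k⁻¹⁆.1, ⁅h⁻¹, k⁻¹⁆.2, Rec.mem_cen.2 (Lc.comm_of_pm h2 k2)⟩, ?_⟩
  show π ⁅h⁻¹, k⁻¹⁆ = _
  rw [map_commutatorElement, map_inv, map_inv, h1, k1, inv_inv, inv_inv]

theorem range_th : (θ π (l 0)).range = Cfsg.Spor.M22 := by
  refine le_antisymm ?_ s.M22_le_range
  rintro _ ⟨x, rfl⟩
  have h1 : θ π (l 0) x ∈ D22 := s.st.range ▸ ⟨_, rfl⟩
  obtain ⟨h2, h3 | h3⟩ := HypA.mem_D22.1 h1
  · exact HypA.mem_M22.2 ⟨h2, h3⟩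
  exfalso
  obtain ⟨h4, h5⟩ := VB.pc_l s (i := 1) (by norm_num)
  have h6 : π ⟨l 1, h4⟩ ∈ D22 := s.st.range ▸ ⟨_, rfl⟩
  have h7 : π ⟨l 1, h4⟩ none = some 0 := ix_injective (by rw [← ap_code_ix, h5]; decide +kernel)
  have h8 : π ⟨l 1, h4⟩ (some 0) = none := ix_injective (by rw [← ap_code_ix, h5]; decide +kernel)
  obtain ⟨k, hk⟩ := s.M22_le_range (HypA.mem_M22.2 ⟨mul_mem h2 h6.1, by rw [Equiv.Perm.mul_apply, h7, h3.2],
    by rw [Equiv.Perm.mul_apply, h8, h3.1]⟩)
  obtain ⟨q, hq, j, -, e⟩ := Let.exists_of_ker s.st (h := inclusion inf_le_left (k⁻¹ * x) * ⟨l 1, h4⟩) (by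
    rw [map_mul]
    show θ π (l 0) (k⁻¹ * x) * _ = 1
    rw [map_mul, map_inv, hk]; group)
  replace e : ((k⁻¹ * x : KK z (l 0)) : G) * l 1 = q * l 0 ^ j := e
  have h9 : Commute ((k⁻¹ * x : KK z (l 0)) : G) (l 0) := Rec.mem_cen.1 (k⁻¹ * x).2.2
  have h10 : q * l 0 * q⁻¹ = (l 0)⁻¹ := by
    calc _ = q * l 0 ^ j * l 0 * (q * l 0 ^ j)⁻¹ := by group
      _ = _ := by
        rw [← e, show ∀ a b c : G, a * b * c * (a * b)⁻¹ = a * (b * c * b⁻¹) * a⁻¹ from fun _ _ _ => by group,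
          s.l0_inv (by norm_num) (by norm_num), h9.inv_right.eq, mul_inv_cancel_right]
  have h11 : l 0 ∈ QG g := by
    have a := mul_mem hq (s.st.nQ _ s.st.pH _ (inv_mem hq))
    rwa [show q * (l 0 * q⁻¹ * (l 0)⁻¹) = q * l 0 * q⁻¹ * (l 0)⁻¹ by group, h10, ← mul_inv_rev,
      inv_eq_of_mul_eq_one_right (b := l 0) (by rw [← VB.p3 s, pow_succ, sq])] at a
  have h12 := orderOf_dvd_natCard _ h11
  rw [s.st.p3, s.st.card] at h12
  norm_num at h12

theorem center_KK : center (KK z (l 0)) = (θ π (l 0)).ker := by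
  refine le_antisymm (fun x hx => HypA.eq_one_of_comm (HypA.le_D22 (s.range_th.le ⟨x, rfl⟩)) fun m hm => ?_)
    fun x hx => mem_center_iff.2 fun y => Subtype.ext ?_
  · obtain ⟨y, rfl⟩ := s.M22_le_range hm
    rw [← map_mul, ← map_mul, mem_center_iff.1 hx]
  · obtain ⟨k, e⟩ := s.th_eq_one.1 hx
    exact (e ▸ (Commute.mul_right (Rec.mem_cen.1 y.2.1) (Rec.mem_cen.1 y.2.2)).zpow_right k : Commute (y : G) x)

theorem card_ker : Nat.card (θ π (l 0)).ker = 6 := by
  have h : zpowers (z * l 0) ≤ KK z (l 0) := zpowers_le.2 ⟨Rec.mem_cen.2 (Commute.mul_left rfl s.st.pH),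
    Rec.mem_cen.2 (Commute.mul_left s.st.pH.symm rfl)⟩
  rw [show (θ π (l 0)).ker = (zpowers (z * l 0)).subgroupOf _ from Subgroup.ext fun _ => s.th_eq_one,
    Nat.card_congr (subgroupOfEquivOfLe h).toEquiv, Nat.card_zpowers,
    Commute.orderOf_mul_eq_mul_orderOf_of_coprime s.st.pH.symm (by rw [s.orderOf_z, s.st.p3]; norm_num), s.orderOf_z,
    s.st.p3]

theorem cyclic_ker : IsCyclic (θ π (l 0)).ker := by
  have h : zpowers (z * l 0) ≤ KK z (l 0) := zpowers_le.2 ⟨Rec.mem_cen.2 (Commute.mul_left rfl s.st.pH),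
    Rec.mem_cen.2 (Commute.mul_left s.st.pH.symm rfl)⟩
  rw [show (θ π (l 0)).ker = (zpowers (z * l 0)).subgroupOf _ from Subgroup.ext fun _ => s.th_eq_one]
  exact (subgroupOfEquivOfLe h).isCyclic.2 inferInstance

theorem card_KK : Nat.card (KK z (l 0)) = 2661120 := by
  rw [← (θ π (l 0)).ker.index_mul_card, index_ker, s.range_th, Golay.card_M22, s.card_ker]

theorem iso_KK : Cfsg.Spor.IsoM22 (KK z (l 0) ⧸ center (KK z (l 0))) :=
  ⟨(QuotientGroup.quotientMulEquivOfEq s.center_KK).trans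
    ((QuotientGroup.quotientKerEquivRange _).trans (MulEquiv.subgroupCongr s.range_th))⟩

theorem perfect_of (h1 : z ∈ ⁅KK z (l 0), KK z (l 0)⁆) (h2 : l 0 ∈ ⁅KK z (l 0), KK z (l 0)⁆) :
    ⁅KK z (l 0), KK z (l 0)⁆ = KK z (l 0) := by
  refine le_antisymm (commutator_le_self _) fun x hx => ?_
  have h3 : (_root_.commutator (KK z (l 0))).map (θ π (l 0)) = Cfsg.Spor.M22 := by
    rw [_root_.commutator_def, map_commutator, ← MonoidHom.range_eq_map, s.range_th, HypA.commutator_M22]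
  obtain ⟨y, hy, e⟩ := h3.ge (s.range_th.le ⟨⟨x, hx⟩, rfl⟩)
  have h4 : (y : G) ∈ ⁅KK z (l 0), KK z (l 0)⁆ := map_subtype_commutator (KK z (l 0)) ▸ mem_map_of_mem _ hy
  have h5 := (zpowers_le.2 (mul_mem h1 h2)) ((s.th_eq_one (x := y⁻¹ * ⟨x, hx⟩)).1
    (by rw [map_mul, map_inv, e, inv_mul_cancel]))
  exact (Subgroup.mul_mem_cancel_left _ (inv_mem h4)).1 h5

/-- An involution of `C(z) ⊓ C(p)` other than `z` is conjugate there to `l 6` or `l 6 * z`. -/
theorem inv_KK {x : G} (hx : x ∈ KK z (l 0)) (h2 : x * x = 1) (h1 : x ≠ 1) (hz : x ≠ z) :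
    ∃ k ∈ KK z (l 0), k * x * k⁻¹ = l 6 ∨ k * x * k⁻¹ = l 6 * z := by
  have a1 : l 6 ∈ KK z (l 0) := ⟨VB.lH s (by norm_num), Rec.mem_cen.2 (s.l0_comm le_rfl (by norm_num))⟩
  have a2 : θ π (l 0) ⟨l 6, a1⟩ = toPerm (pL 6) := s.pi 6 (by norm_num) _ rfl
  have a3 : l 6 * l 6 = 1 := s.vg_sq (i := 6) (by norm_num)
  obtain ⟨m, hm, e⟩ := Lc.conj_M22 (s.range_th.le ⟨⟨x, hx⟩, rfl⟩) (orderOf_eq_prime
    (by rw [sq, ← map_mul, ← map_one (θ π (l 0))]; exact congrArg _ (Subtype.ext h2))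
    fun h => (s.inv_of_th h h2).elim h1 hz)
  obtain ⟨k, rfl⟩ := s.M22_le_range hm
  have a4 : θ π (l 0) (⟨l 6, a1⟩ * (k⁻¹ * ⟨x, hx⟩ * k)) = 1 := by
    rw [map_mul, map_mul, map_mul, ← e, map_inv, a2, ← a2]
    calc _ = θ π (l 0) (⟨l 6, a1⟩ * ⟨l 6, a1⟩) := by rw [map_mul]; group
      _ = 1 := by rw [← map_one (θ π (l 0))]; exact congrArg _ (Subtype.ext a3)
  have a5 : l 6 * (l 6 * ((k : G)⁻¹ * x * k)) = l 6 * ((k : G)⁻¹ * x * k) * l 6 :=
    congrArg Subtype.val (mem_center_iff.1 (s.center_KK.ge a4) ⟨l 6, a1⟩)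
  have a6 : (k : G)⁻¹ * x * k = l 6 * (l 6 * ((k : G)⁻¹ * x * k)) := by rw [← mul_assoc (l 6), a3, one_mul]
  refine ⟨k⁻¹, inv_mem k.2, ?_⟩
  rw [inv_inv]
  refine (s.inv_of_th a4 ?_).imp (fun h => ?_) fun h => ?_
  · show l 6 * ((k : G)⁻¹ * x * k) * (l 6 * ((k : G)⁻¹ * x * k)) = 1
    rw [← mul_assoc, ← a5, ← a6]
    calc _ = (k : G)⁻¹ * (x * x) * k := by group
      _ = 1 := by rw [h2]; group
  · rw [a6, show l 6 * ((k : G)⁻¹ * x * k) = 1 from h, mul_one]
  · rw [a6, show l 6 * ((k : G)⁻¹ * x * k) = z from h]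

end StX

/-- The code of the image of `p`. -/
def cp : ℕ := 59291425967817486997287334362300740

namespace StM

variable [Finite G] {z : G} {g l : ℕ → G} {π : centralizer ({z} : Set G) →* PG} {ψ : M24 →* G}
  (s : StM z π g l ψ)

include s

omit [Finite G] in
theorem l0_eq : l 0 = ψ (el cp) := by rw [s.sl 0 (by norm_num), psi_el]; rfl

theorem vv_mem_cp {a : ℕ} (ha : a < 2048) (h : Split.va cp a = a) : vv z g l a ∈ KK z (l 0) :=
  ⟨Rec.mem_cen.2 (by simpa only [s.o.x.vv_z] using s.vv_comm a 1024), Rec.mem_cen.2 (by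
    rw [s.l0_eq, eq_comm, s.psi_comm_iff _ ha, code_el, h])⟩

theorem psi_mem_KK {y : M24} (h : band (Nat.beq (Split.va (code y) 1024) 1024) (comm (code y) cp) = true) :
    ψ y ∈ KK z (l 0) := by
  rw [band_iff, nbeq_iff, ← code_el cp (by decide +kernel), comm_iff] at h
  exact ⟨Rec.mem_cen.2 ((s.comm_z_iff y).2 h.1), Rec.mem_cen.2 (by
    rw [s.l0_eq, ← map_mul, ← map_mul]; exact congrArg ψ (Subtype.ext h.2))⟩

theorem perfect_KK : ⁅KK z (l 0), KK z (l 0)⁆ = KK z (l 0) := by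
  have a1 := s.psi_mem_KK (y := el 973135677726956088204887272529806386) (by rw [code_el]; decide +kernel)
  have a2 := s.psi_mem_KK (y := el 564193423845897253060685360549545591) (by rw [code_el]; decide +kernel)
  have a3 := s.psi_mem_KK (y := el 819923145466312419029279717799205584) (by rw [code_el]; decide +kernel)
  refine s.o.x.perfect_of ?_ ?_
  · have h := mul_mem (commutator_mem_commutator a1 (s.vv_mem_cp (a := 64) (by norm_num) (by decide +kernel)))
      (commutator_mem_commutator a3 (s.vv_mem_cp (a := 704) (by norm_num) (by decide +kernel)))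
    rwa [commutatorElement_def, commutatorElement_def, s.conj_vv _ (by norm_num), s.conj_vv _ (by norm_num), s.vv_inv,
      s.vv_inv, ← s.o.x.vv_xor, ← s.o.x.vv_xor, ← s.o.x.vv_xor, code_el, code_el,
      show ∀ a : ℕ, a = 1024 → vv z g l a = z from fun _ e => e ▸ s.o.x.vv_z] at h
    decide +kernel
  · have h := commutator_mem_commutator a1 a2
    rwa [← map_commutatorElement, show ⁅el _, el _⁆ = el cp from Subtype.ext (code_injective (by
      rw [commutatorElement_def]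
      simp only [coe_mul, coe_inv, code_mul, code_inv, code_el]
      decide +kernel)), ← s.l0_eq] at h

theorem isolated {k : G} (hk : k * l 0 = l 0 * k) (h : k * z * k⁻¹ * z = z * (k * z * k⁻¹)) : k * z * k⁻¹ = z := by
  by_contra h1
  have a1 : IsConj z (k * z * k⁻¹) := isConj_iff.2 ⟨k, rfl⟩
  obtain ⟨m, hm, e | e⟩ := s.o.x.inv_KK (x := k * z * k⁻¹) ⟨Rec.mem_cen.2 h, Rec.mem_cen.2
    ((Commute.mul_left hk s.o.x.st.pH.symm).mul_left (Commute.inv_left hk))⟩ (Rec.conj_sq s.o.x.q.z_sq)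
    (mt Rec.conj_eq_one.1 s.z_ne) h1
  · exact s.not_conj (x := 64) (by norm_num) (by decide +kernel)
      (a1.trans (isConj_iff.2 ⟨m, e.trans (top_vv_64 z g l).symm⟩))
  have a2 := s.conj_vv (el 971049886563577605878696493631999694) (x := 1024) (by norm_num)
  have a3 := s.conj_vv (el 971049886563577605878696493631999694) (x := 52) (by norm_num)
  rw [code_el] at a2 a3
  rw [show Split.va _ 1024 = 64 ^^^ 1024 by decide +kernel, s.o.x.vv_xor, s.o.x.vv_z, top_vv_64, ← e] at a2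
  rw [show Split.va _ 52 = 256 by decide +kernel] at a3
  generalize ψ (el 971049886563577605878696493631999694) = y at a2 a3
  have a4 := s.o.x.st.nQ ((m * k)⁻¹ * y) (by
    calc _ = (m * k)⁻¹ * (y * z * y⁻¹) * y := by group
      _ = _ := by rw [a2]; group) _ ((s.o.x.vv_mem_Q (a := 52) (by norm_num)).2 rfl)
  rw [show (m * k)⁻¹ * y * vv z g l 52 * ((m * k)⁻¹ * y)⁻¹ = (m * k)⁻¹ * (y * vv z g l 52 * y⁻¹) * (m * k)⁻¹⁻¹ by group,
    a3] at a4
  have a5 : Commute (m * k) (l 0) := Commute.mul_left (Rec.mem_cen.1 hm.2) hk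
  have a6 : Commute (vv z g l 256) (l 0) := Rec.mem_cen.1 (s.vv_mem_cp (a := 256) (by norm_num) (by decide +kernel)).2
  rcases s.o.x.st.fpf _ a4 ((a5.inv_left.mul_left a6).mul_left a5.inv_left.inv_left).symm with a7 | a7
  · exact s.vv_ne_one (by norm_num) (by norm_num) (Rec.conj_eq_one.1 a7)
  · exact s.not_conj (x := 256) (by norm_num) (by decide +kernel) (isConj_iff.2 ⟨_, a7⟩).symm

end StM

namespace StJ

variable [Finite G] {z : G} {g l : ℕ → G} {π : centralizer ({z} : Set G) →* PG} {ψ : M24 →* G} (s : StJ z π g l ψ)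

include s

theorem cent_p_le : centralizer {l 0} ≤ centralizer ({z} : Set G) := by
  refine Lc.le_cent_of_isolated s.x.orderOf_z (Rec.mem_cen.2 s.x.st.pH.symm)
    (fun k hk => s.t.m.isolated (Rec.mem_cen.1 hk)) fun O h1 h2 => ?_
  have g1 : ∀ x < 2 ^ 2, gp (fun i => vv z g l (2 ^ (i + 6))) x 2 = vv z g l (64 * x) := fun x hx => by
    rw [gp_succ, gp_succ, gp_nil, one_mul]
    interval_cases x
    exacts [by simp [s.x.vv_zero], by simp [Nat.testBit], by simp [Nat.testBit],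
      by simpa [Nat.testBit] using (s.x.vv_xor 64 128).symm]
  obtain ⟨E, e1, e2, e3⟩ := Lc.exists_elem (e := fun i => vv z g l (2 ^ (i + 6))) (n := 2) (fun i _ => s.t.m.vv_sq _)
    (fun i _ j _ => s.t.m.vv_comm _ _) fun x hx h => by
      by_contra h0
      exact s.t.m.vv_ne_one (by omega) (by omega) (g1 x hx ▸ h)
  refine GT.CopAct.le_of_centralizer_elt_le e1.1 (GT.CopAct.not_isCyclic_of_isElementaryAbelian e1 e2.ge)
    (fun a ha => h2 ?_) (by rw [e2]; exact (Nat.coprime_two_left.2 h1).pow_left 2) fun a ha h3 x hx => ?_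
  all_goals
    obtain ⟨y, hy, rfl⟩ := (e3 a).1 ha
    rw [g1 y hy] at *
  · exact (s.t.m.vv_mem_cp (by omega) (by interval_cases y <;> decide +kernel)).2
  have h4 := s.cd _ (by omega) (by
    interval_cases y
    exacts [absurd s.x.vv_zero h3, by decide +kernel, by decide +kernel, by decide +kernel]) hx.2
  have h5 : z ∈ VG z g l := by simpa only [s.x.vv_z] using s.t.m.vv_mem 1024
  exact Rec.mem_cen.2 (Rec.commute_of_odd h1 hx.1 (h2 (Rec.mem_cen.2 s.x.st.pH.symm)) (j := 1)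
    (s.x.elem_V.2 _ (mul_mem (Rec.conj_mem_of_mem_norm h4 h5) (inv_mem h5))))

theorem cent_p : centralizer {l 0} = KK z (l 0) := (inf_eq_right.2 s.cent_p_le).symm

theorem norm_p_le : normalizer (zpowers (l 0) : Set G) ≤ centralizer ({z} : Set G) := fun n hn => by
  have h1 : cj n (centralizer {l 0}) = centralizer {l 0} := by
    rw [← Lc.cent_zpowers, cj_centralizer, cj_eq_iff.2 hn]
  have h2 : n * z * n⁻¹ ∈ KK z (l 0) := s.cent_p ▸ h1 ▸ conj_mem_cj.2 (Rec.mem_cen.2 s.x.st.pH.symm)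
  refine Rec.mem_cen'.2 ((s.x.inv_of_th (x := ⟨_, h2⟩) (s.x.center_KK.le (mem_center_iff.2 fun y => Subtype.ext ?_))
    (Rec.conj_sq s.x.q.z_sq)).resolve_left (mt Rec.conj_eq_one.1 s.x.q.z_ne))
  have h3 := Rec.mem_cen.1 (s.cent_p_le (mem_cj.1 (h1.ge y.2.2)))
  calc (y : G) * (n * z * n⁻¹) = n * (n⁻¹ * y * n * z) * n⁻¹ := by group
    _ = n * z * n⁻¹ * y := by rw [h3]; group

end StJ

end Cfsg.Agent.J4T
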