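import Mathlib
import Cfsg.Agent.J4T.Mx
import Cfsg.Agent.J4T.Fix
import Cfsg.Agent.Rec.SylTools
import Cfsg.Agent.Spor.MB.Cent
import Cfsg.Agent.FG.ClassCount
import Cfsg.Agent.GT.HallTools

/-!
Tools for the local analysis at odd primes: normalisers in `2 ^ 11 : M24` of subgroups of `M24`.
-/

set_option autoImplicit false

namespace Cfsg.Agent.J4T

open Cfsg.Agent.Spor Cfsg.Agent.Spor.MB Cfsg.Agent.Spor.J4C Subgroup Cfsg.Agent.Inv.Fz

variable {G : Type*} [Group G]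

namespace Lc

theorem card_class (K : Subgroup G) (t : G) {X : Set G} (hX : ∀ y, y ∈ X ↔ ∃ h ∈ K, h * t * h⁻¹ = y) :
    X.ncard * Nat.card ↥(K ⊓ centralizer {t}) = Nat.card K := by
  rw [show X = {y | ∃ h ∈ K, h * t * h⁻¹ = y} from Set.ext hX, FG.ncard_conj_orbit_subgroup, mul_comm, inf_comm,
    GT.HT.card_inf_mul_relIndex]

omit [Group G] in
theorem ncard_of_list {X : Set G} {f : ℕ → G} {L : List ℕ} {n : ℕ} (hf : ∀ a < n, ∀ b < n, f a = f b → a = b)
    (hL : L.Nodup ∧ ∀ a ∈ L, a < n) (h : ∀ x, x ∈ X ↔ ∃ a ∈ L, f a = x) : X.ncard = L.length := by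
  classical
  rw [show X = f '' (L.toFinset : Set ℕ) from Set.ext fun x => by simp [h],
    Set.InjOn.ncard_image fun a ha b hb => hf a (hL.2 a (by simpa using ha)) b (hL.2 b (by simpa using hb)),
    Set.ncard_coe_finset, List.toFinset_card_of_nodup hL.1]

theorem mul_card_le [Finite G] {K : Subgroup G} {t : G} {f : ℕ → G} {L : List ℕ} {n : ℕ}
    (hf : ∀ a < n, ∀ b < n, f a = f b → a = b) (hL : L.Nodup ∧ ∀ a ∈ L, a < n)
    (h : ∀ a ∈ L, ∃ k ∈ K, k * t * k⁻¹ = f a) : L.length * Nat.card ↥(K ⊓ centralizer {t}) ≤ Nat.card K := by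
  rw [← card_class K t (X := {y | ∃ h ∈ K, h * t * h⁻¹ = y}) fun _ => Iff.rfl,
    ← ncard_of_list (X := {x | ∃ a ∈ L, f a = x}) hf hL fun _ => Iff.rfl]
  refine Nat.mul_le_mul_right _ (Set.ncard_le_ncard ?_ (Set.toFinite _))
  rintro _ ⟨a, ha, rfl⟩
  exact h a ha

theorem cent_zpowers (x : G) : centralizer (zpowers x : Set G) = centralizer {x} := by
  rw [zpowers_eq_closure, centralizer_closure]

theorem exists_mul_modEq [Finite G] {p : ℕ} [hp : Fact p.Prime] {P K : Subgroup G} (h : IsSylIn p P K) :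
    ∃ m, m % p = 1 ∧ Nat.card ↥(K ⊓ normalizer (P : Set G)) * m = Nat.card K := by
  have h1 := card_sylow_modEq_one p K
  rw [h.toSylow.card_eq_index_normalizer] at h1
  refine ⟨(normalizer (P : Set G)).relIndex K, ?_, by rw [inf_comm, GT.HT.card_inf_mul_relIndex]⟩
  rw [relIndex, subgroupOf_normalizer_eq h.le]
  exact Eq.trans h1 (Nat.mod_eq_of_lt hp.out.one_lt)

/-- A central Sylow subgroup of prime order is a direct factor. -/
theorem exists_direct [Finite G] {p m : ℕ} [hp : Fact p.Prime] {x : G} (hx : orderOf x = p)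
    (hc : Nat.card (centralizer (zpowers x : Set G)) = p * m) (hm : ¬ p ∣ m) :
    ∃ J : Subgroup G, Cfsg.IsInternalDirectProduct (zpowers x) J (centralizer (zpowers x : Set G)) ∧
      Nat.card J = m ∧ (∀ y ∈ centralizer (zpowers x : Set G), (orderOf y).Coprime p → y ∈ J) ∧
      ∀ y ∈ centralizer (zpowers x : Set G), ∃ u ∈ zpowers x, ∃ j ∈ J, y = u * j := by
  set K := centralizer (zpowers x : Set G) with hK
  have h0 : zpowers x ≤ K := le_centralizer _
  have hU : Nat.card (zpowers x) = p := by rw [Nat.card_zpowers, hx]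
  have hV : IsSylIn p (zpowers x) K := Rec.isSylIn_of_card h0 (k := 1) (by rw [hU, pow_one]) (by rw [hc, pow_one]) hm
  obtain ⟨O, h1, h2, h3, h4⟩ := Rec.exists_complement hV fun g hg _ v hv => (mem_centralizer_iff.1 hg v hv).symm
  have h5 : zpowers x ⊓ O = ⊥ := (disjoint_of_coprime_natCard (by rw [hU]; exact h3.symm)).eq_bot
  have h6 : ∀ y ∈ K, ∃ u ∈ zpowers x, ∃ j ∈ O, y = u * j := fun y hy => by
    have e : y ^ (p * m) = 1 := by rw [← hc]; exact congrArg Subtype.val (pow_card_eq_one' (x := (⟨y, hy⟩ : K)))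
    have c : Nat.Coprime p m := (Nat.Prime.coprime_iff_not_dvd hp.out).2 hm
    have a1 : y ^ p ∈ O := h4 _ (pow_mem hy p)
      (c.symm.coprime_dvd_left (orderOf_dvd_of_pow_eq_one (by rw [← pow_mul, e])))
    obtain ⟨k, hk, a2⟩ := Rec.exists_conj_mem_syl hV (pow_mem hy m) (k := 1) (by rw [pow_one, ← pow_mul, mul_comm, e])
    have a3 : y ^ m ∈ zpowers x := by
      have a4 := mem_centralizer_iff.1 hk _ a2
      rwa [show y ^ m = k * y ^ m * k⁻¹ from mul_left_cancel (a := k) (by rw [← a4]; group)]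
    refine ⟨_, zpow_mem a3 (Nat.gcdB p m), _, zpow_mem a1 (Nat.gcdA p m), ?_⟩
    rw [← zpow_natCast, ← zpow_natCast, ← zpow_mul, ← zpow_mul, ← zpow_add, add_comm, ← Nat.gcd_eq_gcd_ab, c]
    simp
  have h7 : zpowers x ⊔ O = K := le_antisymm (sup_le h0 h1) fun y hy => by
    obtain ⟨u, hu, j, hj, rfl⟩ := h6 y hy
    exact mul_mem (mem_sup_left hu) (mem_sup_right hj)
  refine ⟨O, ⟨h0, h1, fun a ha b hb => mem_centralizer_iff.1 (h1 hb) a ha, h5, h7⟩, ?_, h4, h6⟩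
  have h8 := GT.HT.card_sup_mul_card_inf (h0.trans h2)
  rw [sup_comm, h7, inf_comm, h5, hc, hU, card_bot, mul_one, mul_comm] at h8
  exact (Nat.eq_of_mul_eq_mul_right hp.out.pos h8).symm

theorem direct_cj {A B : Subgroup G} (h : Cfsg.IsInternalDirectProduct A B (centralizer (A : Set G))) (c : G) :
    Cfsg.IsInternalDirectProduct (cj c A) (cj c B) (centralizer (cj c A : Set G)) := by
  rw [← cj_centralizer]
  refine ⟨cj_mono h.1, cj_mono h.2.1, fun a ha b hb => ?_, by rw [← cj_inf, h.2.2.2.1, cj_bot],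
    by rw [← cj_sup, h.2.2.2.2]⟩
  calc _ = c * (c⁻¹ * a * c * (c⁻¹ * b * c)) * c⁻¹ := by group
    _ = _ := by rw [h.2.2.1 _ (mem_cj.1 ha) _ (mem_cj.1 hb)]; group

/-- Subgroups of prime order `p` are conjugate if `p ^ 2` does not divide the order. -/
theorem exists_cj_eq [Finite G] {p m : ℕ} [hp : Fact p.Prime] {K A B : Subgroup G} (hK : Nat.card K = p * m)
    (hm : ¬ p ∣ m) (hA : Nat.card A = p) (hB : Nat.card B = p) (h1 : A ≤ K) (h2 : B ≤ K) : ∃ c ∈ K, cj c A = B :=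
  (Rec.isSylIn_of_card h2 (k := 1) (by rw [hB, pow_one]) (by rw [hK, pow_one]) hm).exists_cj_eq
    (Rec.isSylIn_of_card h1 (k := 1) (by rw [hA, pow_one]) (by rw [hK, pow_one]) hm)

end Lc

/-- The image of a subgroup of `M24`. -/
def pim (ψ : M24 →* G) (Y : Subgroup PG) : Subgroup G := (Y.subgroupOf M24).map ψ

theorem mem_pim {ψ : M24 →* G} {Y : Subgroup PG} {a : G} : a ∈ pim ψ Y ↔ ∃ y : M24, (y : PG) ∈ Y ∧ ψ y = a := Iff.rfl

theorem pim_zpowers (ψ : M24 →* G) (y : M24) : pim ψ (zpowers (y : PG)) = zpowers (ψ y) := by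
  rw [pim, ← MonoidHom.map_zpowers, ← show (zpowers y).map M24.subtype = zpowers (y : PG) from
    MonoidHom.map_zpowers _ _, subgroupOf, comap_map_eq_self_of_injective M24.subtype_injective]

theorem valN_of {ψ : M24 →* G} {y : M24} {c : ℕ} (h : code y = c) : valN ψ c = ψ y := by rw [← h, valN_code, ext_coe]

/-- The element of `M24` with a given code. -/
noncomputable def el (c : ℕ) (h : inM24 c = true := by decide +kernel) : M24 := ⟨toPerm c, toPerm_mem h⟩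

theorem code_el (c : ℕ) (h : inM24 c = true) : code (el c h) = c := code_toPerm' h

theorem psi_el (ψ : M24 →* G) (c : ℕ) (h : inM24 c = true) : ψ (el c h) = valN ψ c := (valN_of (code_el c h)).symm

namespace StM

variable [Finite G] {z : G} {g l : ℕ → G} {π : centralizer ({z} : Set G) →* PG} {ψ : M24 →* G}
  (s : StM z π g l ψ)

include s

omit [Finite G] in
theorem psi_inj : Function.Injective ψ := s.zs.psi_injective s.o.x.q.z_ne

omit [Finite G] in
theorem card_M : Nat.card (normalizer (VG z g l : Set G)) = 501397585920 := s.hs ▸ s.zs.card_HS s.o.x.q.z_ne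

omit [Finite G] in
theorem card_pim {Y : Subgroup PG} (hY : Y ≤ M24) : Nat.card (pim ψ Y) = Nat.card Y := by
  rw [pim, card_map_of_injective s.psi_inj, Nat.card_congr (subgroupOfEquivOfLe hY).toEquiv]

theorem pim_le (Y : Subgroup PG) : pim ψ Y ≤ normalizer (VG z g l : Set G) := by
  rintro _ ⟨y, -, rfl⟩
  exact s.psi_mem y

omit [Finite G] in
theorem orderOf_psi (y : M24) : orderOf (ψ y) = orderOf (y : PG) := by
  rw [orderOf_injective ψ s.psi_inj, orderOf_coe]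

theorem exists_mul {a : G} (ha : a ∈ normalizer (VG z g l : Set G)) : ∃ v ∈ VG z g l, ∃ y : M24, a = v * ψ y := by
  obtain ⟨u, y, rfl⟩ := s.zs.mem_HS.1 (s.hs ▸ ha)
  exact ⟨_, s.VS_eq ▸ s.zs.Z_mem_VS u, y, rfl⟩

theorem psi_comm_iff (y : M24) {a : ℕ} (ha : a < 2048) :
    ψ y * vv z g l a = vv z g l a * ψ y ↔ Split.va (code y) a = a := by
  rw [← mul_inv_eq_iff_eq_mul, s.conj_vv y ha]
  exact ⟨s.o.x.vv_inj (Split.va_lt _ _) ha, fun e => by rw [e]⟩

theorem comm_z_iff (y : M24) : ψ y * z = z * ψ y ↔ Split.va (code y) 1024 = 1024 := by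
  rw [← s.psi_comm_iff y (by norm_num), s.o.x.vv_z]

theorem split_conj {v : G} (hv : v ∈ VG z g l) {y x x' : M24} (e : v * ψ y * ψ x * (v * ψ y)⁻¹ = ψ x') :
    y * x * y⁻¹ = x' ∧ v * ψ x' = ψ x' * v := by
  have h1 := Rec.conj_mem_of_mem_norm (s.psi_mem (y * x * y⁻¹)) (inv_mem hv)
  have h2 := (s.zs.mul_inj s.o.x.q.z_ne (s.VS_eq ▸ mul_mem hv h1) (one_mem _) (g := y * x * y⁻¹) (k := x') (by
    rw [← e]; simp only [map_mul, map_inv]; group)).2
  refine ⟨h2, ?_⟩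
  rw [← mul_inv_eq_iff_eq_mul]
  conv_lhs => rw [← h2]
  rw [← e]; simp only [map_mul, map_inv]; group

theorem card_eq {A : Subgroup G} {B : Subgroup PG} (hA : A ≤ normalizer (VG z g l : Set G)) (hB : B ≤ M24)
    (h1 : ∀ v ∈ VG z g l, ∀ y : M24, v * ψ y ∈ A → (y : PG) ∈ B) (h2 : ∀ y : M24, (y : PG) ∈ B → ψ y ∈ A) :
    Nat.card A = Nat.card ↥(VG z g l ⊓ A) * Nat.card B := by
  rw [← Nat.card_prod]
  refine (Nat.card_congr (Equiv.ofBijective (fun p : ↥(VG z g l ⊓ A) × B =>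
    (⟨p.1 * ψ ⟨p.2, hB p.2.2⟩, mul_mem p.1.2.2 (h2 _ p.2.2)⟩ : A)) ⟨fun p q e => ?_, fun a => ?_⟩)).symm
  · have h := s.zs.mul_inj s.o.x.q.z_ne (s.VS_eq.ge p.1.2.1) (s.VS_eq.ge q.1.2.1) (congrArg Subtype.val e)
    exact Prod.ext (Subtype.ext h.1) (Subtype.ext (congrArg Subtype.val h.2 :))
  · obtain ⟨v, hv, y, e⟩ := s.exists_mul (hA a.2)
    have h3 := h1 v hv y (e ▸ a.2)
    exact ⟨⟨⟨v, hv, (A.mul_mem_cancel_right (h2 y h3)).1 (e ▸ a.2)⟩, ⟨y, h3⟩⟩, Subtype.ext e.symm⟩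

theorem card_norm {Y : Subgroup PG} (hY : Y ≤ M24) :
    Nat.card ↥(normalizer (VG z g l : Set G) ⊓ normalizer (pim ψ Y : Set G)) =
      Nat.card ↥(VG z g l ⊓ centralizer (pim ψ Y : Set G)) * Nat.card ↥(M24 ⊓ normalizer (Y : Set PG)) := by
  rw [s.card_eq inf_le_left (B := M24 ⊓ normalizer (Y : Set PG)) inf_le_left (fun v hv y h => ⟨y.2, ?_⟩)
    fun y h => ⟨s.psi_mem y, ?_⟩]
  · refine congrArg (fun K : Subgroup G => Nat.card K * _) (Subgroup.ext fun v => ?_)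
    refine ⟨fun h => ⟨h.1, mem_centralizer_iff.2 ?_⟩, fun h => ⟨h.1, le_normalizer h.1, centralizer_le_normalizer _ h.2⟩⟩
    rintro _ ⟨x, hx, rfl⟩
    obtain ⟨x', -, e⟩ := Rec.conj_mem_of_mem_norm h.2.2 (⟨x, hx, rfl⟩ : ψ x ∈ pim ψ Y)
    have h1 := s.split_conj h.1 (y := 1) (x := x) (x' := x') (by rw [e, map_one, mul_one])
    rw [one_mul, inv_one, mul_one] at h1
    exact (h1.1 ▸ h1.2).symm
  · refine mem_normalizer_of_conj_mem fun x hx => ?_
    obtain ⟨x', hx', e⟩ := Rec.conj_mem_of_mem_norm h.2 (⟨⟨x, hY hx⟩, hx, rfl⟩ : ψ _ ∈ pim ψ Y)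
    rwa [← (s.split_conj hv e.symm).1] at hx'
  · refine mem_normalizer_of_conj_mem ?_
    rintro _ ⟨x, hx, rfl⟩
    exact ⟨y * x * y⁻¹, Rec.conj_mem_of_mem_norm (K := Y) h.2 hx, by simp only [map_mul, map_inv]⟩

theorem split_comm {v : G} (hv : v ∈ VG z g l) {y x : M24} (e : v * ψ y * ψ x = ψ x * (v * ψ y)) :
    y * x = x * y ∧ v * ψ x = ψ x * v :=
  (s.split_conj hv (mul_inv_eq_iff_eq_mul.2 e)).imp_left mul_inv_eq_iff_eq_mul.1

theorem card_cent (x : M24) : Nat.card ↥(normalizer (VG z g l : Set G) ⊓ centralizer {ψ x}) =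
    Nat.card ↥(VG z g l ⊓ centralizer {ψ x}) * Nat.card (CZ x) := by
  rw [s.card_eq inf_le_left (CZ_le x) (fun v hv y h => mem_CZ.2 ⟨y.2, congrArg Subtype.val
    (s.split_comm hv (Rec.mem_cen.1 h.2)).1⟩) fun y h => ⟨s.psi_mem y, Rec.mem_cen.2 (by
      rw [← map_mul, ← map_mul, show y * x = x * y from Subtype.ext (mem_CZ.1 h).2])⟩,
    ← inf_assoc, inf_eq_left.2 le_normalizer]

theorem card_normz (x : M24) : Nat.card ↥(normalizer (VG z g l : Set G) ⊓ normalizer (zpowers (ψ x) : Set G)) =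
    Nat.card ↥(VG z g l ⊓ centralizer {ψ x}) * Nat.card (NZ x) := by
  have h := s.card_norm (zpowers_le.2 x.2)
  rwa [pim_zpowers, Lc.cent_zpowers] at h

/-- The fixed points in `V` of an element of `M24`. -/
theorem fix_iff {x : M24} {c : ℕ} (hc : code x = c) {L : List ℕ}
    (h : allLt 2048 (fun a => (Nat.beq (Split.va c a) a) == memL L a) = true) (hL : ∀ a ∈ L, a < 2048) {v : G} :
    v ∈ VG z g l ⊓ centralizer {ψ x} ↔ ∃ a ∈ L, vv z g l a = v := by
  have key : ∀ a < 2048, vv z g l a ∈ centralizer {ψ x} ↔ a ∈ L := fun a ha => by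
    rw [Rec.mem_cen, eq_comm, s.psi_comm_iff x ha, hc, ← memL_iff, ← beq_iff_eq.1 ((allLt_iff _ _).1 h a ha),
      Nat.beq_eq]
  constructor
  · rintro ⟨h1, h2⟩
    obtain ⟨a, ha, rfl⟩ := s.o.x.mem_VG.1 h1
    exact ⟨a, (key a ha).1 h2, rfl⟩
  · rintro ⟨a, ha, rfl⟩
    exact ⟨s.vv_mem a, (key a (hL a ha)).2 ha⟩

theorem card_of_list {A : Subgroup G} {L : List ℕ} (hL : L.Nodup ∧ ∀ a ∈ L, a < 2048)
    (h : ∀ v, v ∈ A ↔ ∃ a ∈ L, vv z g l a = v) : Nat.card A = L.length :=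
  Lc.ncard_of_list (X := (A : Set G)) (fun _ ha _ hb => s.o.x.vv_inj ha hb) hL h

/-- An element that conjugates a duad into `V` normalises `V`. -/
theorem mem_norm_of_duad {a : ℕ} (ha : a < 2048) (hd : dua a = true) {c : G}
    (h : c⁻¹ * vv z g l a * c ∈ VG z g l) : c ∈ normalizer (VG z g l : Set G) :=
  map_conj_eq_iff.1 (s.ctx.uniq (s.vv_ne_one ha (by rintro rfl; exact absurd hd (by decide +kernel)))
    (s.not_conj ha hd) (s.ev.conj c) s.ev (mem_map_conj_iff.2 h) (s.vv_mem a))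

end StM

theorem StJ.card_norm_eq [Finite G] {z : G} {g l : ℕ → G} {π : centralizer ({z} : Set G) →* PG} {ψ : M24 →* G}
    (s : StJ z π g l ψ) {p : ℕ} [Fact p.Prime] {U : Subgroup G} (hU : IsSylIn p U (normalizer (VG z g l : Set G)))
    {n : ℕ} (hn : Nat.card ↥(normalizer (VG z g l : Set G) ⊓ normalizer (U : Set G)) = n) :
    ∃ f : ℕ → ℕ, Nat.card (normalizer (U : Set G)) = (1 + f 1 + f 2 + f 3 + f 4 + f 5 + f 6) * n ∧
      ∀ i < 7, f i % p = orbL i % p ∧ (f i = 0 ∨ (orbL i * Nat.card U ∣ 501397585920 ∧ f i * Nat.card U ∣ n)) := by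
  obtain ⟨f, h0, h1, h2⟩ := full_card_norm s.full (s.full_H ▸ hU)
  rw [s.full_H, hn] at h1 h2
  exact ⟨f, by rw [h1]; simp only [Finset.sum_range_succ, Finset.sum_range_zero, zero_add, h0], h2⟩

end Cfsg.Agent.J4T
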