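import Mathlib
import Cfsg.Agent.Inv.FzBasic
import Cfsg.Agent.GT.PiGroups
import Cfsg.Agent.GT.PGroupElemAb
import Cfsg.Agent.Cl.LinearBasic
import Cfsg.Agent.Spor.Comp.Basic
import Cfsg.Agent.Spor.MB.Cent

/-!
Abstract lemmas for the normaliser of a special group of order `2 ^ 15` with quotient `S5 × L3(2)`.
-/

set_option autoImplicit false

namespace Cfsg.Agent.J4T.Pen

open Cfsg.Agent.Spor Cfsg.Agent.Inv.Fz Subgroup Equiv
open scoped commutatorElement

variable {G : Type*} [Group G]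

theorem conj_mem {L : Subgroup G} {n x : G} (hn : n ∈ normalizer (L : Set G)) (hx : x ∈ L) : n * x * n⁻¹ ∈ L :=
  (mem_normalizer_iff.1 hn x).1 hx

/-- The elements of the normaliser of `L` commuting with `b` modulo `L`. -/
def cmS (L : Subgroup G) (b : G) : Subgroup G where
  carrier := {a | a ∈ normalizer (L : Set G) ∧ a * b * a⁻¹ * b⁻¹ ∈ L}
  one_mem' := ⟨one_mem _, by simp⟩
  mul_mem' := fun {a c} ha hc => ⟨mul_mem ha.1 hc.1, by
    convert mul_mem (conj_mem ha.1 hc.2) ha.2 using 1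
    group⟩
  inv_mem' := fun {a} ha => ⟨inv_mem ha.1, by
    convert conj_mem (inv_mem ha.1) (inv_mem ha.2) using 1
    group⟩

theorem comm_symm {L : Subgroup G} {a b : G} (h : a * b * a⁻¹ * b⁻¹ ∈ L) : b * a * b⁻¹ * a⁻¹ ∈ L := by
  convert inv_mem h using 1
  group

theorem comm_of_gen {L : Subgroup G} {a b : ℕ → G} {m n : ℕ} (ha : ∀ i < m, a i ∈ normalizer (L : Set G))
    (hb : ∀ j < n, b j ∈ normalizer (L : Set G)) (h : ∀ i < m, ∀ j < n, a i * b j * (a i)⁻¹ * (b j)⁻¹ ∈ L)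
    {x y : G} (hx : x ∈ genLt a m) (hy : y ∈ genLt b n) : x * y * x⁻¹ * y⁻¹ ∈ L :=
  comm_symm (genLt_le (K := cmS L x) (fun j hj => ⟨hb j hj,
    comm_symm (genLt_le (K := cmS L (b j)) (fun i hi => ⟨ha i hi, h i hi j hj⟩) hx).2⟩) hy).2

theorem sq_of_gen {Z : Subgroup G} {a : ℕ → G} {m : ℕ}
    (h2 : ∀ x ∈ genLt a m, ∀ y ∈ genLt a m, x * y * x⁻¹ * y⁻¹ ∈ Z) (h3 : ∀ i < m, a i * a i = 1) {x : G}
    (hx : x ∈ genLt a m) : x * x ∈ Z := by
  let K : Subgroup G :=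
    { carrier := {x | x ∈ genLt a m ∧ x * x ∈ Z}
      one_mem' := ⟨one_mem _, by simp⟩
      mul_mem' := fun {x y} hx hy => ⟨mul_mem hx.1 hy.1, by
        convert mul_mem (mul_mem hx.2 (h2 _ (inv_mem hx.1) _ hy.1)) hy.2 using 1
        group⟩
      inv_mem' := fun {x} hx => ⟨inv_mem hx.1, by rw [← mul_inv_rev]; exact inv_mem hx.2⟩ }
  exact (genLt_le (K := K) (fun i hi => ⟨mem_genLt a hi, h3 i hi ▸ one_mem _⟩) hx).2

theorem norm_of_gen [Finite G] {a : ℕ → G} {m : ℕ} {n : G} (h : ∀ i < m, n * a i * n⁻¹ ∈ genLt a m) :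
    n ∈ normalizer (genLt a m : Set G) :=
  mem_normalizer_of_conj_mem fun _ hx => genLt_le (K := (genLt a m).comap (MulAut.conj n).toMonoidHom) h hx

theorem no_compl_aux {L K : Subgroup G} (h1 : ∀ k ∈ K, k ∈ L → k = 1)
    (h2 : ∀ n ∈ normalizer (L : Set G), ∃ a ∈ L, a * n ∈ K) {s v w c : G} (hs : s ∈ normalizer (L : Set G))
    (hK : s ∈ K) (hC : ∀ a ∈ L, s * a = a * s → a = 1) (hv : v ∈ normalizer (L : Set G))
    (hw : w ∈ normalizer (L : Set G)) (hc : c ∈ normalizer (L : Set G)) (sv : s * v = v * s) (sw : s * w = w * s)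
    (cv : c * v * c⁻¹ * v⁻¹ ∈ L) (cw : c * w * c⁻¹ * w⁻¹ ∈ L)
    (h : ∀ a ∈ L, a * c * v = v * (a * c) → a * c * w ≠ w * (a * c)) : False := by
  obtain ⟨a, ha, k⟩ := h2 c hc
  have key : ∀ v ∈ normalizer (L : Set G), s * v = v * s → c * v * c⁻¹ * v⁻¹ ∈ L → a * c * v = v * (a * c) :=
    fun v hv sv cv => by
      obtain ⟨b, hb, k1⟩ := h2 v hv
      have e : s * (b * v) * s⁻¹ * (b * v)⁻¹ = s * b * s⁻¹ * b⁻¹ := by
        rw [show s * (b * v) * s⁻¹ * (b * v)⁻¹ = s * b * (v * s⁻¹ * v⁻¹) * b⁻¹ by group,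
          show v * s⁻¹ * v⁻¹ = (v * s * v⁻¹)⁻¹ by group, ← sv, mul_inv_cancel_right]
      have k2 := h1 _ (mul_mem (mul_mem (mul_mem hK k1) (inv_mem hK)) (inv_mem k1))
        (e ▸ mul_mem (conj_mem hs hb) (inv_mem hb))
      rw [e, mul_inv_eq_one, mul_inv_eq_iff_eq_mul] at k2
      rw [hC b hb k2, one_mul] at k1
      have k3 := h1 _ (mul_mem (mul_mem (mul_mem k k1) (inv_mem k)) (inv_mem k1)) (by
        convert mul_mem (mul_mem ha cv) (conj_mem hv (inv_mem ha)) using 1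
        group)
      rwa [mul_inv_eq_one, mul_inv_eq_iff_eq_mul] at k3
  exact h a ha (key v hv sv cv) (key w hw sw cw)

theorem no_compl [Finite G] {L : Subgroup G} {s v w c : G} (hs : s ∈ normalizer (L : Set G))
    (hC : ∀ a ∈ L, s * a = a * s → a = 1) (hv : v ∈ normalizer (L : Set G))
    (hw : w ∈ normalizer (L : Set G)) (hc : c ∈ normalizer (L : Set G)) (sv : s * v = v * s) (sw : s * w = w * s)
    (cv : c * v * c⁻¹ * v⁻¹ ∈ L) (cw : c * w * c⁻¹ * w⁻¹ ∈ L)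
    (h : ∀ a ∈ L, a * c * v = v * (a * c) → a * c * w ≠ w * (a * c)) (K : Subgroup (normalizer (L : Set G))) :
    ¬ (L.subgroupOf (normalizer (L : Set G))).IsComplement' K := fun hK => by
  have h1 : ∀ k ∈ K.map (normalizer (L : Set G)).subtype, k ∈ L → k = 1 := by
    rintro _ ⟨k, hk, rfl⟩ h
    exact congrArg Subtype.val (disjoint_def.1 hK.disjoint (mem_subgroupOf.2 h) hk)
  have h2 : ∀ n ∈ normalizer (L : Set G), ∃ a ∈ L, a * n ∈ K.map (normalizer (L : Set G)).subtype := fun n hn => by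
    obtain ⟨⟨a, k⟩, e⟩ := hK.2 ⟨n, hn⟩
    refine ⟨(a.1 : G)⁻¹, inv_mem a.2, k.1, k.2, ?_⟩
    rw [eq_inv_mul_iff_mul_eq]
    exact congrArg Subtype.val e
  obtain ⟨a, ha, k⟩ := h2 s hs
  have h3 : Function.Injective fun m : L => (⟨m * (s * (m : G)⁻¹ * s⁻¹), mul_mem m.2 (conj_mem hs (inv_mem m.2))⟩ : L) :=
    fun m m' e => by
      have e1 : (m : G) * (s * (m : G)⁻¹ * s⁻¹) = m' * (s * (m' : G)⁻¹ * s⁻¹) := congrArg Subtype.val e
      have e2 := hC _ (mul_mem (inv_mem m'.2) m.2) (by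
        calc s * ((m' : G)⁻¹ * m) = (m' : G)⁻¹ * (m' * (s * (m' : G)⁻¹ * s⁻¹)) * s * m := by group
          _ = _ := by rw [← e1]; group)
      exact Subtype.ext (inv_mul_eq_one.1 e2).symm
  obtain ⟨m, hm⟩ := Finite.injective_iff_surjective.1 h3 ⟨a, ha⟩
  have e : (m : G) * (s * (m : G)⁻¹ * s⁻¹) = a := congrArg Subtype.val hm
  refine no_compl_aux (K := cj (m : G)⁻¹ (K.map (normalizer (L : Set G)).subtype)) (fun x hx hL => ?_)
    (fun n hn => ?_) hs ?_ hC hv hw hc sv sw cv cw h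
  · have k1 := h1 _ (mem_cj.1 hx) (mul_mem (mul_mem (inv_mem (inv_mem m.2)) hL) (inv_mem m.2))
    rwa [inv_inv, mul_inv_eq_one, mul_eq_left] at k1
  · obtain ⟨b, hb, k1⟩ := h2 (m * n * (m : G)⁻¹)
      (mul_mem (mul_mem (le_normalizer m.2) hn) (le_normalizer (inv_mem m.2)))
    refine ⟨(m : G)⁻¹ * b * m, mul_mem (mul_mem (inv_mem m.2) hb) m.2, mem_cj.2 ?_⟩
    convert k1 using 1
    group
  · refine mem_cj.2 ?_
    convert k using 1
    rw [← e]
    group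

/-- The special linear group of degree three over the field with two elements. -/
abbrev SL3 := Matrix.SpecialLinearGroup (Fin 3) (ZMod 2)

theorem equiv_SL3 [Finite G] {Z K : Subgroup G} (h1 : Cfsg.IsElementaryAbelian 2 Z) (h2 : Nat.card Z = 2 ^ 3)
    (h3 : K ≤ normalizer (Z : Set G)) (h4 : K ⊓ centralizer (Z : Set G) = ⊥) (h5 : Nat.card K = 168) :
    Nonempty (K ≃* SL3) := by
  obtain ⟨e⟩ := GT.PG.nonempty_mulAut_equiv_GL (G := Z) (p := 2) h1.1 (fun x => Subtype.ext (h1.2 x x.2)) h2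
  have h6 : Nat.card (MulAut Z) = 168 := by
    rw [Nat.card_congr e.toEquiv, Matrix.card_GL_field]
    simp [Fin.prod_univ_succ]
  have h7 : Function.Injective (Z.normalizerMonoidHom.comp (inclusion h3)) :=
    (injective_iff_map_eq_one _).2 fun k hk => by
      have k1 : inclusion h3 k ∈ Z.normalizerMonoidHom.ker := hk
      rw [normalizerMonoidHom_ker] at k1
      exact Subtype.ext (mem_bot.1 (h4.le ⟨k.2, k1⟩))
  have : Finite (MulAut Z) := Nat.finite_of_card_ne_zero (by omega)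
  exact ⟨((MulEquiv.ofBijective _ (h7.bijective_of_nat_card_le (by omega))).trans e).trans
    (Cl.slEquivGLOfCardTwo (by simp)).symm⟩

theorem eq_one_of_mem {L : Subgroup G} (hL : IsPGroup 2 L) {φ : Perm (Fin 5) →* G}
    (h1 : ∀ a, φ a ∈ normalizer (L : Set G)) (h2 : φ (swap 0 1) ≠ φ (swap 1 2)) {a : Perm (Fin 5)} (h : φ a ∈ L) :
    a = 1 := by
  have : (L.comap φ).Normal := ⟨fun x hx y => by
    rw [mem_comap, map_mul, map_mul, map_inv]
    exact conj_mem (h1 y) hx⟩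
  by_contra hne
  have k := Perm.alternatingGroup_le_of_normal (N := L.comap φ) (by simp)
    ((nontrivial_iff_exists_ne_one _).2 ⟨a, h, hne⟩) (x := swap 0 1 * swap 1 2) (by
      rw [Perm.mem_alternatingGroup]; decide)
  obtain ⟨n, hn⟩ := hL ⟨_, k⟩
  have k1 : φ (swap 0 1 * swap 1 2) ^ 2 ^ n = 1 := congrArg Subtype.val hn
  have k2 : φ (swap 0 1 * swap 1 2) ^ 3 = 1 := by
    rw [← map_pow, show (swap 0 1 * swap 1 2 : Perm (Fin 5)) ^ 3 = 1 by decide, map_one]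
  have k3 := pow_gcd_eq_one.2 ⟨k1, k2⟩
  rw [Nat.Coprime.pow_left n (by norm_num : Nat.Coprime 2 3), pow_one, map_mul, mul_eq_one_iff_eq_inv, ← map_inv,
    swap_inv] at k3
  exact h2 k3

theorem equiv_quot [Finite G] {L Z K : Subgroup G} {φ : Perm (Fin 5) →* G} (e : K ≃* SL3)
    (hc : Nat.card K = 168) (h1 : Nat.card L = 2 ^ 15) (h2 : ∀ a, φ a ∈ normalizer (L : Set G))
    (h3 : K ≤ normalizer (L : Set G)) (h4 : L ≤ centralizer (Z : Set G)) (h5 : ∀ a, φ a ∈ centralizer (Z : Set G))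
    (h6 : K ⊓ centralizer (Z : Set G) = ⊥) (h7 : ∀ a, ∀ b ∈ K, φ a * b * (φ a)⁻¹ * b⁻¹ ∈ L)
    (h8 : ∀ a, φ a ∈ L → a = 1) (h9 : Nat.card (normalizer (L : Set G)) ≤ 2 ^ 15 * 20160) :
    Nonempty (normalizer (L : Set G) ⧸ L.subgroupOf (normalizer (L : Set G)) ≃* Perm (Fin 5) × SL3) := by
  let f := (QuotientGroup.mk' (L.subgroupOf (normalizer (L : Set G)))).comp (φ.codRestrict _ h2)
  let f' := (QuotientGroup.mk' (L.subgroupOf (normalizer (L : Set G)))).comp ((inclusion h3).comp e.symm.toMonoidHom)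
  have k1 : ∀ a b, Commute (f a) (f' b) := fun a b => by
    have k := (QuotientGroup.eq_one_iff (N := L.subgroupOf (normalizer (L : Set G)))
      ⁅φ.codRestrict _ h2 a, inclusion h3 (e.symm b)⁆).2 (h7 a _ (e.symm b).2)
    rw [← QuotientGroup.mk'_apply, map_commutatorElement] at k
    exact commutatorElement_eq_one_iff_commute.1 k
  have k2 : Function.Injective (f.noncommCoprod f' k1) := (injective_iff_map_eq_one _).2 fun x hx => by
    have k3 : φ x.1 * e.symm x.2 ∈ L := (QuotientGroup.eq_one_iff (N := L.subgroupOf (normalizer (L : Set G)))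
      (φ.codRestrict _ h2 x.1 * inclusion h3 (e.symm x.2))).1 hx
    have k4 : e.symm x.2 = 1 := Subtype.ext (mem_bot.1
      (h6.le ⟨(e.symm x.2).2, (mul_mem_cancel_left (h5 x.1)).1 (h4 k3)⟩))
    rw [k4, OneMemClass.coe_one, mul_one] at k3
    exact Prod.ext (h8 _ k3) ((map_eq_one_iff _ e.symm.injective).1 k4)
  refine ⟨(MulEquiv.ofBijective _ (k2.bijective_of_nat_card_le ?_)).symm⟩
  have k3 := card_mul_relIndex (le_normalizer : L ≤ _)
  rw [h1] at k3
  rw [Nat.card_prod, ← Nat.card_congr e.toEquiv, hc, Nat.card_perm, Nat.card_fin]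
  refine Nat.le_of_mul_le_mul_left (c := 2 ^ 15) (k3.le.trans h9) (by norm_num)

/-- A five-cycle. -/
def c5 : Perm (Fin 5) := swap 0 1 * swap 1 2 * swap 2 3 * swap 3 4

theorem orderOf_c5 : orderOf c5 = 5 := haveI : Fact (Nat.Prime 5) := ⟨by norm_num⟩
  orderOf_eq_prime (by decide) (by decide)

theorem norm_five [Finite G] {N Z K : Subgroup G} {φ : Perm (Fin 5) →* G} (hφ : Function.Injective φ)
    (h1 : Nat.card Z = 2 ^ 3) (h2 : ∀ a, φ a ∈ N) (h3 : N ≤ normalizer (Z : Set G)) (h4 : Z ≤ N)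
    (h4' : Z ≤ centralizer (Z : Set G)) (h5 : ∀ a, φ a ∈ centralizer (Z : Set G))
    (h6 : K ⊓ centralizer (Z : Set G) = ⊥) (hc : Nat.card K = 168)
    (h7 : K ≤ N ⊓ centralizer ({φ c5} : Set G) ⊔ centralizer (Z : Set G))
    (h8 : Nat.card (centralizer ({φ c5} : Set G)) = 6720) : normalizer (zpowers (φ c5) : Set G) ≤ N := by
  have o : orderOf (φ c5) = 5 := (orderOf_injective φ hφ c5).trans orderOf_c5
  have k1 := card_mul_relIndex (inf_le_left : N ⊓ centralizer ({φ c5} : Set G) ⊓ centralizer (Z : Set G) ≤ _)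
  have k2 := card_mul_relIndex (inf_le_left : K ⊓ centralizer (Z : Set G) ≤ _)
  rw [inf_relIndex_left] at k1 k2
  rw [h6, hc, card_bot, one_mul] at k2
  have k3 := relIndex_le_of_le_right (H := centralizer (Z : Set G)) h7 index_ne_zero_of_finite
  rw [k2, GT.relIndex_sup_of_le_normalizer
    (inf_le_left.trans (h3.trans (normalizer_le_normalizer_centralizer Z)))] at k3
  have k4 : 8 ∣ Nat.card ↥(N ⊓ centralizer ({φ c5} : Set G) ⊓ centralizer (Z : Set G)) :=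
    (h1 ▸ card_dvd_of_le fun x hx => ⟨⟨h4 hx, mem_centralizer_singleton_iff.2 (h5 c5 x hx)⟩, h4' hx⟩ : 2 ^ 3 ∣ _)
  have k5 : 5 ∣ Nat.card ↥(N ⊓ centralizer ({φ c5} : Set G) ⊓ centralizer (Z : Set G)) :=
    o.symm.dvd.trans (Subgroup.orderOf_dvd_natCard _ ⟨⟨h2 _, mem_centralizer_singleton_iff.2 rfl⟩, h5 _⟩)
  have k6 := Nat.le_of_dvd Nat.card_pos (Nat.Coprime.mul_dvd_of_dvd_of_dvd (by norm_num) k4 k5)
  have k7 : N ⊓ centralizer ({φ c5} : Set G) = centralizer {φ c5} :=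
    eq_of_le_of_card_ge inf_le_right (by rw [h8, ← k1]; exact Nat.mul_le_mul k6 k3)
  intro n hn
  have k8 := MB.mem_normalizer_zpowers_iff.1 hn
  rw [← MonoidHom.map_zpowers] at k8
  obtain ⟨σ, hσ, e⟩ := k8
  obtain ⟨i, hi, rfl⟩ := Finset.mem_image.1 (mem_zpowers_iff_mem_range_orderOf.1 hσ)
  rw [orderOf_c5, Finset.mem_range] at hi
  rcases (by decide +kernel : ∀ i < 5, c5 ^ i = 1 ∨ ∃ j < 4, (swap 1 2 * swap 1 4 * swap 1 3) ^ j * c5 =
      c5 ^ i * (swap 1 2 * swap 1 4 * swap 1 3) ^ j) i hi with k | ⟨j, -, k⟩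
  · rw [k, map_one, eq_comm, mul_inv_eq_one, mul_eq_left] at e
    rw [e, orderOf_one] at o
    omega
  · generalize (swap 1 2 * swap 1 4 * swap 1 3 : Perm (Fin 5)) ^ j = τ at k
    refine (mul_mem_cancel_left (inv_mem (h2 τ))).1 (k7.ge (mem_centralizer_singleton_iff.2 ?_)).1
    have k9 := congrArg φ k
    rw [map_mul, map_mul, e] at k9
    calc (φ τ)⁻¹ * n * φ c5 = (φ τ)⁻¹ * (n * φ c5 * n⁻¹ * φ τ) * ((φ τ)⁻¹ * n) := by group
      _ = _ := by rw [← k9]; group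

theorem norm_seven [Finite G] {N : Subgroup G} {φ : Perm (Fin 5) →* G} (hφ : Function.Injective φ) {s r : G}
    (h1 : ∀ a, φ a ∈ N) (h2 : ∀ a, φ a * s = s * φ a) (h3 : s ∈ N) (h4 : r ∈ N) (o : orderOf s = 7)
    (h5 : r * s * r⁻¹ = s * s) (h6 : Nat.card (centralizer ({s} : Set G)) = 840)
    (h7 : Nat.card (normalizer (zpowers s : Set G)) = 2520) : normalizer (zpowers s : Set G) ≤ N := by
  have k1 : 120 ∣ Nat.card ↥(N ⊓ centralizer ({s} : Set G)) := by
    have k := card_dvd_of_le (H := φ.range) (K := N ⊓ centralizer ({s} : Set G)) (by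
      rintro _ ⟨a, rfl⟩
      exact ⟨h1 a, mem_centralizer_singleton_iff.2 (h2 a)⟩)
    rwa [← Nat.card_congr (MonoidHom.ofInjective hφ).toEquiv, Nat.card_perm, Nat.card_fin] at k
  have k2 : 7 ∣ Nat.card ↥(N ⊓ centralizer ({s} : Set G)) :=
    o ▸ Subgroup.orderOf_dvd_natCard _ ⟨h3, mem_centralizer_singleton_iff.2 rfl⟩
  have k3 : N ⊓ centralizer ({s} : Set G) = centralizer {s} := eq_of_le_of_card_ge inf_le_right
    (h6 ▸ Nat.le_of_dvd Nat.card_pos (Nat.Coprime.mul_dvd_of_dvd_of_dvd (by norm_num) k1 k2))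
  have k4 : centralizer ({s} : Set G) ≤ N ⊓ normalizer (zpowers s : Set G) := fun x hx =>
    ⟨(k3.ge hx).1, MB.mem_normalizer_zpowers_iff.2 (by
      rw [mem_centralizer_singleton_iff.1 hx, mul_inv_cancel_right]; exact mem_zpowers s)⟩
  have k5 := card_lt_of_lt (lt_of_le_of_ne k4 fun e => by
    have k := mem_centralizer_singleton_iff.1 (e.ge ⟨h4, MB.mem_normalizer_zpowers_iff.2
      (h5 ▸ mul_mem (mem_zpowers s) (mem_zpowers s))⟩)
    rw [k, mul_inv_cancel_right, left_eq_mul] at h5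
    rw [h5, orderOf_one] at o
    omega)
  obtain ⟨m, k6⟩ := card_dvd_of_le k4
  have k7 := card_dvd_of_le (inf_le_right : N ⊓ normalizer (zpowers s : Set G) ≤ _)
  rw [h6] at k5 k6
  rw [h7, k6, show 2520 = 840 * 3 from rfl, Nat.mul_dvd_mul_iff_left (by norm_num),
    Nat.dvd_prime Nat.prime_three] at k7
  exact inf_eq_right.1 (eq_of_le_of_card_ge inf_le_right (by omega))

end Cfsg.Agent.J4T.Pen
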