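import Mathlib
import Cfsg.Agent.Spor.J4.Main

/-!
Straight line programs in the fourth Janko group, checked in the representation of degree 112.
-/

set_option autoImplicit false

namespace Cfsg.Agent.J4T

open Cfsg.Agent.Spor Cfsg.Agent.Spor.MB Cfsg.Agent.Spor.J4C Cfsg.Agent.Spor.NM Cfsg.Spor

/-- A power of a matrix. -/
noncomputable def pwM (a e : ℕ) : ℕ := Spor.force a fun a => Nat.rec mI (fun _ ih => mM a ih) e

/-- A new letter. -/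
noncomputable def updM (f : ℕ → ℕ) (n c : ℕ) (i : ℕ) : ℕ := Bool.rec (f i) c (Nat.beq i n)

/-- Runs a program: the instruction `e :: w` defines the next letter as the `e`-th power of the word `w`. -/
noncomputable def runM (k : (ℕ → ℕ) → Bool) (prog : List (List ℕ)) : ℕ → (ℕ → ℕ) → Bool :=
  List.rec (motive := fun _ => ℕ → (ℕ → ℕ) → Bool) (fun _ f => k f)
    (fun ins _ ih n f => Spor.force (pwM (evN mM mI f (tlL ins)) (hdL ins)) fun c =>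
      Spor.force (Nat.succ n) fun n' => ih n' (updM f n c)) prog

/-- The pairs of words in `eqs` are equal, those in `nes` are different. -/
noncomputable def chkM (eqs nes : List (List ℕ × List ℕ)) (f : ℕ → ℕ) : Bool :=
  band (Spor.allL eqs fun p => Nat.beq (evN mM mI f p.1) (evN mM mI f p.2))
    (Spor.allL nes fun p => !Nat.beq (evN mM mI f p.1) (evN mM mI f p.2))

/-- The matrices `f i` are the images of the elements `a i`. -/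
def RepM (f : ℕ → ℕ) (a : ℕ → J4) : Prop := ∀ i, MM.V (f i) ∧ phi (a i) = MM.elt (f i)

theorem RepM.ev {f : ℕ → ℕ} {a : ℕ → J4} (h : RepM f a) (w : List ℕ) :
    MM.V (evN mM mI f w) ∧ phi (evalW a w) = MM.elt (evN mM mI f w) := by
  obtain ⟨h1, h2⟩ := Model.evN_sound (M := MM) (gc := f) (w := w) fun x _ => (h x).1
  refine ⟨h1, ?_⟩
  rw [h2, map_evalW, show (fun i => phi (a i)) = MM.g f from funext fun i => (h i).2.trans (g_eq MM f i).symm]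

theorem pwM_spec {a : ℕ} (h : MM.V a) (e : ℕ) : MM.V (pwM a e) ∧ MM.elt (pwM a e) = MM.elt a ^ e := by
  rw [pwM, Spor.force_eq]
  induction e with
  | zero => exact ⟨MM.V_one, by rw [pow_zero]; exact MM.elt_one⟩
  | succ e ih => exact ⟨MM.V_mul h ih.1, by rw [pow_succ', ← ih.2]; exact MM.elt_mul h ih.1⟩

theorem runM_sound {k : (ℕ → ℕ) → Bool} {prog : List (List ℕ)} {n : ℕ} {f : ℕ → ℕ} {a : ℕ → J4} (h : RepM f a)
    (hr : runM k prog n f = true) : ∃ f' a', RepM f' a' ∧ (∀ i < n, a' i = a i) ∧ k f' = true := by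
  induction prog generalizing n f a with
  | nil => exact ⟨f, a, h, fun _ _ => rfl, hr⟩
  | cons ins prog ih =>
    have h1 : runM k prog (n + 1) (updM f n (pwM (evN mM mI f (tlL ins)) (hdL ins))) = true := hr
    obtain ⟨h2, h3⟩ := h.ev (tlL ins)
    obtain ⟨h4, h5⟩ := pwM_spec h2 (hdL ins)
    obtain ⟨f', a', k1, k2, k3⟩ := ih (a := fun i => if i = n then evalW a (tlL ins) ^ hdL ins else a i) (fun i => by
      beta_reduce
      by_cases e : i = n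
      · rw [if_pos e, updM, (nbeq_iff _ _).2 e]
        exact ⟨h4, by rw [map_pow, h3, ← h5]⟩
      · rw [if_neg e, updM, show Nat.beq i n = false by rw [← Bool.not_eq_true, nbeq_iff]; exact e]
        exact h i) h1
    exact ⟨f', a', k1, fun i hi => by rw [k2 i (by omega), if_neg (by omega)], k3⟩

theorem repM_five : RepM m5 j5 := fun i => by
  have h1 := phi_word [i]
  rw [evalW_cons, evalW_cons, evalW_nil, evalW_nil, mul_one, mul_one, g_eq] at h1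
  refine ⟨?_, h1⟩
  by_cases h : i < 5
  · exact m5_lets i h
  · rw [m5_eq, if_neg (by omega), if_neg (by omega), if_neg (by omega), if_neg (by omega), ← show m5 2 = mW from rfl]
    exact m5_lets 2 (by norm_num)

/-- The elements defined by a program satisfy the checked relations. The letters `0 .. 4` are `x`, `y`, `y⁻¹`,
`t`, `z`. -/
theorem slp_J4 {prog : List (List ℕ)} {eqs nes : List (List ℕ × List ℕ)}
    (h : runM (chkM eqs nes) prog 5 m5 = true) : ∃ a : ℕ → J4, (∀ i < 5, a i = j5 i) ∧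
      (∀ p ∈ eqs, evalW a p.1 = evalW a p.2) ∧ ∀ p ∈ nes, evalW a p.1 ≠ evalW a p.2 := by
  obtain ⟨f, a, h1, h2, h3⟩ := runM_sound repM_five h
  rw [chkM, band_iff, Spor.allL_iff, Spor.allL_iff] at h3
  refine ⟨a, h2, fun p hp => phi_injective ?_, fun p hp e => ?_⟩
  · rw [(h1.ev _).2, (h1.ev _).2, (nbeq_iff _ _).1 (h3.1 p hp)]
  · have h4 := h3.2 p hp
    rw [MM.inj (h1.ev p.1).1 (h1.ev p.2).1 (by rw [← (h1.ev _).2, ← (h1.ev _).2, e]), (nbeq_iff _ _).2 rfl] at h4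
    simp at h4

/-- The same in an isomorphic group. -/
theorem slp_of_equiv {G : Type*} [Group G] (e : J4 ≃* G) {prog : List (List ℕ)} {eqs nes : List (List ℕ × List ℕ)}
    (h : runM (chkM eqs nes) prog 5 m5 = true) : ∃ a : ℕ → G, (∀ i < 3, ∃ y, a i = e (psi y)) ∧
      (∀ p ∈ eqs, evalW a p.1 = evalW a p.2) ∧ ∀ p ∈ nes, evalW a p.1 ≠ evalW a p.2 := by
  obtain ⟨a, h1, h2, h3⟩ := slp_J4 h
  have h4 : ∀ w, evalW (fun i => e (a i)) w = e (evalW a w) := fun w => (map_evalW e.toMonoidHom a w).symm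
  refine ⟨fun i => e (a i), fun i hi => ?_, fun p hp => by rw [h4, h4, h2 p hp],
    fun p hp => by rw [h4, h4]; exact e.injective.ne (h3 p hp)⟩
  show ∃ y, e (a i) = _
  rw [h1 i (by omega)]
  interval_cases i
  exacts [⟨xb, by rw [psi_x]; rfl⟩, ⟨yb, by rw [psi_y]; rfl⟩, ⟨yb⁻¹, by rw [map_inv psi, psi_y]; rfl⟩]

/-- Elements of order 23, 22 and 2. -/
theorem chk23 : runM (chkM [(powW 23 [17], []), (powW 22 [15], []), ([16, 16], []), ([15, 17], [17, 17, 17, 17, 17, 15]),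
    ([15, 16, 15, 16], []), ([16, 17, 16], 17 :: appL (powW 11 [15]) [16, 17])]
    [([17, 16, 17, 16], [16, 17, 16, 17])])
  [[1, 0, 0, 3, 2, 3, 2, 0, 2, 0, 3, 2, 0, 2, 0, 1, 0, 1, 3, 0, 1, 0, 1, 3, 1, 3, 0],
  [11, 0, 2, 3, 0, 1, 0, 1, 0, 1, 3, 0, 3, 2, 0, 2, 0, 2, 0, 3, 1],
  [1, 3, 2, 0, 2, 0, 2, 0, 3, 1, 6],
  [9, 7],
  [2, 0, 2, 0, 2, 0, 2, 0, 2, 3, 0, 0, 0, 3, 1, 0, 1, 0, 1, 0, 1],
  [1, 0, 3, 1, 0, 1, 0, 1, 0, 1, 9],
  [9, 10],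
  [7, 0, 2, 3, 2, 3, 0, 1, 0, 1, 3, 0, 3, 2, 0, 2, 0, 3, 1, 3, 1],
  [1, 3, 2, 0, 2, 0, 3, 1, 3, 1, 12],
  [27, 13],
  [1, 8, 11, 14, 14, 7, 10, 14, 14, 14, 10, 8, 10, 13, 10, 8],
  [1, 7, 10, 14, 11, 13, 13, 10, 13, 13, 7, 10],
  [6, 5]] 5 m5 = true := by decide +kernel

theorem exists_23 {G : Type*} [Group G] (e : J4 ≃* G) : ∃ u h w : G, u ^ 23 = 1 ∧ h ^ 22 = 1 ∧ w * w = 1 ∧
    h * u = u ^ 5 * h ∧ h * (w * h * w) = 1 ∧ w * u * w = u * h ^ 11 * w * u ∧ u * (w * u * w) ≠ w * u * w * u := by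
  obtain ⟨a, -, h1, h2⟩ := slp_of_equiv e chk23
  simp only [List.forall_mem_cons, evalW_powW, evalW_appL, evalW_cons, evalW_nil, mul_one, List.not_mem_nil,
    IsEmpty.forall_iff, implies_true, and_true] at h1 h2
  refine ⟨a 17, a 15, a 16, ?_⟩
  simpa only [mul_assoc, pow_succ' (a 17) 4, pow_succ' (a 17) 3, pow_succ' (a 17) 2, sq, and_assoc] using
    And.intro h1 h2

/-- An element of order 29 and an element that normalises it. -/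
theorem chk29 : runM (chkM [(powW 29 [5], []), ([15, 5], appL (powW 2 [5]) [15])] [([5], [])])
  [[1, 0, 0, 2, 3, 2, 3, 1, 0, 3, 1, 0, 2, 3, 0, 2, 3, 1, 3, 1, 0],
  [7, 0, 2, 3, 0, 1, 0, 2, 0, 2, 0, 0, 0, 1, 0, 1, 0, 2, 0, 3, 1],
  [1, 0, 1, 0, 1, 0, 2, 0, 3, 1, 6],
  [11, 7],
  [2, 0, 1, 0, 1, 3, 2, 0, 2, 3, 0, 0, 0, 3, 1, 0, 1, 3, 2, 0, 2],
  [1, 0, 3, 1, 0, 1, 3, 2, 0, 2, 9],
  [9, 10],
  [5, 0, 2, 0, 1, 0, 1, 0, 2, 0, 0, 0, 1, 0, 2, 0, 2, 0, 1],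
  [1, 0, 1, 0, 2, 0, 2, 0, 1, 12],
  [3, 13],
  [1, 7, 10, 14, 7, 11, 14, 11, 11, 14, 8, 8, 10, 10, 10, 8, 8]] 5 m5 = true := by decide +kernel

theorem exists_29 {G : Type*} [Group G] (e : J4 ≃* G) : ∃ y n : G, orderOf y = 29 ∧ n * y * n⁻¹ = y ^ 2 := by
  obtain ⟨a, -, h1, h2⟩ := slp_of_equiv e chk29
  simp only [List.forall_mem_cons, evalW_powW, evalW_appL, evalW_cons, evalW_nil, mul_one, List.not_mem_nil,
    IsEmpty.forall_iff, implies_true, and_true] at h1 h2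
  have : Fact (Nat.Prime 29) := ⟨by norm_num⟩
  exact ⟨a 5, a 15, orderOf_eq_prime h1.1 h2, mul_inv_eq_of_eq_mul h1.2⟩

/-- An element of order 31 and an element that normalises it. -/
theorem chk31 : runM (chkM [(powW 31 [5], []), ([14, 5], appL (powW 29 [5]) [14])] [([5], [])])
  [[1, 0, 3, 1, 0, 1, 0, 1, 0, 1, 3, 1, 0, 2, 3, 2, 0, 2, 0, 2, 0, 2, 3],
  [5, 0, 2, 0, 1, 0, 1, 0, 2, 3, 0, 3, 1, 0, 2, 0, 2, 0, 1],
  [1, 3, 1, 0, 2, 0, 2, 0, 1, 6],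
  [3, 7],
  [11, 0, 1, 3, 0, 1, 3, 2, 0, 2, 0, 0, 0, 1, 0, 1, 3, 2, 0, 3, 2],
  [1, 0, 1, 0, 1, 3, 2, 0, 3, 2, 9],
  [5, 10],
  [2, 0, 1, 3, 0, 1, 0, 2, 3, 1, 0, 0, 0, 2, 3, 1, 0, 2, 0, 3, 2],
  [1, 0, 2, 3, 1, 0, 2, 0, 3, 2, 12],
  [1, 8, 10, 8, 11, 11, 8, 11, 13, 13, 8, 10, 13, 10, 13, 7]] 5 m5 = true := by decide +kernel

theorem exists_31 {G : Type*} [Group G] (e : J4 ≃* G) : ∃ y n : G, orderOf y = 31 ∧ n * y * n⁻¹ = y ^ 29 := by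
  obtain ⟨a, -, h1, h2⟩ := slp_of_equiv e chk31
  simp only [List.forall_mem_cons, evalW_powW, evalW_appL, evalW_cons, evalW_nil, mul_one, List.not_mem_nil,
    IsEmpty.forall_iff, implies_true, and_true] at h1 h2
  have : Fact (Nat.Prime 31) := ⟨by norm_num⟩
  exact ⟨a 5, a 14, orderOf_eq_prime h1.1 h2, mul_inv_eq_of_eq_mul h1.2⟩

/-- An element of order 37 and an element that normalises it. -/
theorem chk37 : runM (chkM [(powW 37 [5], []), ([15, 5], appL (powW 8 [5]) [15])] [([5], [])])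
  [[1, 0, 0, 1, 0, 1, 0, 2, 0, 3, 2, 0, 1, 3, 0, 1, 0, 2, 0, 2, 0],
  [7, 0, 1, 3, 0, 2, 0, 2, 3, 0, 1, 3, 0, 3, 2, 0, 3, 1, 0, 1, 0, 3, 2],
  [1, 3, 2, 0, 3, 1, 0, 1, 0, 3, 2, 6],
  [27, 7],
  [2, 0, 1, 3, 0, 1, 0, 2, 3, 1, 0, 0, 0, 2, 3, 1, 0, 2, 0, 3, 2],
  [1, 0, 2, 3, 1, 0, 2, 0, 3, 2, 9],
  [11, 10],
  [2, 0, 1, 0, 1, 0, 1, 0, 1, 0, 0, 0, 2, 0, 2, 0, 2, 0, 2],
  [1, 0, 2, 0, 2, 0, 2, 0, 2, 12],
  [7, 13],
  [1, 8, 8, 11, 11, 7, 10, 7, 14, 10, 13, 11, 14, 7, 10, 8]] 5 m5 = true := by decide +kernel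

theorem exists_37 {G : Type*} [Group G] (e : J4 ≃* G) : ∃ y n : G, orderOf y = 37 ∧ n * y * n⁻¹ = y ^ 8 := by
  obtain ⟨a, -, h1, h2⟩ := slp_of_equiv e chk37
  simp only [List.forall_mem_cons, evalW_powW, evalW_appL, evalW_cons, evalW_nil, mul_one, List.not_mem_nil,
    IsEmpty.forall_iff, implies_true, and_true] at h1 h2
  have : Fact (Nat.Prime 37) := ⟨by norm_num⟩
  exact ⟨a 5, a 15, orderOf_eq_prime h1.1 h2, mul_inv_eq_of_eq_mul h1.2⟩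

/-- An element of order 43 and an element that normalises it. -/
theorem chk43 : runM (chkM [(powW 43 [5], []), ([15, 5], appL (powW 2 [5]) [15])] [([5], [])])
  [[1, 0, 3, 1, 0, 1, 3, 1, 0, 1, 0, 2, 0, 2, 3, 2, 0, 2, 3],
  [7, 0, 2, 3, 0, 1, 0, 1, 3, 0, 2, 0, 0, 0, 1, 0, 3, 2, 0, 2, 0, 3, 1],
  [1, 0, 1, 0, 3, 2, 0, 2, 0, 3, 1, 6],
  [9, 7],
  [7, 0, 1, 3, 0, 2, 0, 2, 3, 0, 1, 3, 0, 0, 0, 3, 2, 0, 3, 1, 0, 1, 0, 3, 2],
  [1, 0, 3, 2, 0, 3, 1, 0, 1, 0, 3, 2, 9],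
  [27, 10],
  [5, 0, 1, 0, 2, 0, 2, 0, 1, 0, 0, 0, 2, 0, 1, 0, 1, 0, 2],
  [1, 0, 2, 0, 1, 0, 1, 0, 2, 12],
  [3, 13],
  [1, 8, 8, 14, 8, 14, 10, 8, 13, 10, 13, 11, 13, 7, 10, 7, 10]] 5 m5 = true := by decide +kernel

theorem exists_43 {G : Type*} [Group G] (e : J4 ≃* G) : ∃ y n : G, orderOf y = 43 ∧ n * y * n⁻¹ = y ^ 2 := by
  obtain ⟨a, -, h1, h2⟩ := slp_of_equiv e chk43
  simp only [List.forall_mem_cons, evalW_powW, evalW_appL, evalW_cons, evalW_nil, mul_one, List.not_mem_nil,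
    IsEmpty.forall_iff, implies_true, and_true] at h1 h2
  have : Fact (Nat.Prime 43) := ⟨by norm_num⟩
  exact ⟨a 5, a 15, orderOf_eq_prime h1.1 h2, mul_inv_eq_of_eq_mul h1.2⟩

/-- The normaliser of a Sylow 11-subgroup: `a`, `b`, `c` generate the Sylow subgroup, `u`, `h`, `w` generate
`GL₂(3)`, `n` has order 10. -/
structure E11 {G : Type*} [Group G] (a b c u h w n : G) : Prop where
  a11 : a ^ 11 = 1
  b11 : b ^ 11 = 1
  c11 : c ^ 11 = 1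
  bc : b * c = a * c * b
  ab : a * b = b * a
  ac : a * c = c * a
  ub : u * b = b ^ 5 * c ^ 9 * a ^ 5 * u
  uc : u * c = b ^ 10 * c ^ 5 * a ^ 8 * u
  hb : h * b = b ^ 10 * h
  hc : h * c = c * h
  wb : w * b = c * w
  wc : w * c = b * w
  nb : n * b = b ^ 2 * n
  nc : n * c = c ^ 9 * n
  na : n * a = a ^ 7 * n
  n10 : n ^ 10 = 1
  u3 : u ^ 3 = 1
  hh : h * h = 1
  ww : w * w = 1
  hu : h * u = u ^ 2 * h
  h5 : w * h * w * u ^ 2 = u * (w * h * w)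
  h6 : h * (w * h * w) = w * h * w * h
  h7 : w * u * w = u * h * w * u
  a1 : a ≠ 1
  n2 : n ^ 2 ≠ 1
  h8 : u * (w * u * w) ≠ w * u * w * u
  h9 : h * (w * h * w) ≠ 1

theorem chk11 : runM (chkM [([5], [0, 1, 0, 1, 0, 1, 0, 2, 0, 2, 0, 2]), (powW 11 [28], []), (powW 11 [5], []),
    (powW 11 [27], []), ([5, 27], [28, 27, 5]), ([28, 5], [5, 28]), ([28, 27], [27, 28]),
    ([29, 5], appL (powW 5 [5]) (appL (powW 9 [27]) (appL (powW 5 [28]) [29]))),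
    ([29, 27], appL (powW 10 [5]) (appL (powW 5 [27]) (appL (powW 8 [28]) [29]))),
    ([30, 5], appL (powW 10 [5]) [30]), ([30, 27], [27, 30]), ([31, 5], [27, 31]), ([31, 27], [5, 31]),
    ([32, 5], appL (powW 2 [5]) [32]), ([32, 27], appL (powW 9 [27]) [32]), ([32, 28], appL (powW 7 [28]) [32]),
    (powW 10 [32], []), (powW 3 [29], []), ([30, 30], []), ([31, 31], []), ([30, 29], appL (powW 2 [29]) [30]),
    (appL [31, 30, 31] (powW 2 [29]), [29, 31, 30, 31]), ([30, 31, 30, 31], [31, 30, 31, 30]),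
    ([31, 29, 31], [29, 30, 31, 29])]
    [([28], []), (powW 2 [32], []), ([29, 31, 29, 31], [31, 29, 31, 29]), ([30, 31, 30, 31], [])])
  [[1, 0, 1, 0, 1, 0, 1, 0, 2, 0, 2, 0, 2],
  [11, 0, 2, 4, 1, 0, 5],
  [1, 0, 6],
  [5, 7, 1, 0, 2, 0, 2, 3, 0, 1, 3, 7, 3, 2, 0, 3, 1, 0, 1, 0, 2],
  [1, 3, 2, 0, 3, 1, 0, 1, 0, 2, 8],
  [11, 9],
  [5, 7, 2, 3, 1, 0, 2, 0, 1, 3, 7, 3, 2, 0, 1, 0, 2, 3, 1],
  [1, 3, 2, 0, 1, 0, 2, 3, 1, 11],
  [5, 12],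
  [5, 7, 2, 0, 1, 3, 2, 3, 2, 3, 0, 7, 0, 3, 1, 3, 1, 3, 2, 0, 1],
  [1, 0, 3, 1, 3, 1, 3, 2, 0, 1, 14],
  [15, 15],
  [1, 9, 12, 15, 9, 13, 9, 15, 13, 9, 15, 15, 15, 15, 13, 10, 6],
  [1, 9, 12, 15, 15, 15, 15, 15, 15, 15, 15, 13, 10],
  [1, 9, 12, 10, 10, 10, 12, 15, 12, 10, 16, 12, 9, 9, 12],
  [1, 13, 10, 10, 13, 15, 9, 13, 16, 13, 9, 9, 9, 13, 10],
  [1, 9, 12, 12, 15, 9, 15, 13, 9, 12, 9, 12, 16, 10],
  [1, 9, 15, 13, 10, 13, 10, 12, 16, 10, 16, 13, 13, 10],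
  [1, 19, 17, 21, 19, 21],
  [1, 18, 19, 17, 17, 17],
  [1, 19, 22, 20, 20, 21],
  [1, 24, 24, 25, 24],
  [1, 25, 5, 25, 25, 25],
  [9, 17],
  [1, 24, 24],
  [1, 6, 25, 25],
  [1, 30, 25],
  [1, 0, 23]] 5 m5 = true := by decide +kernel

theorem exists_11 {G : Type*} [Group G] (e : J4 ≃* G) :
    ∃ a b c u h w n : G, (∃ y, b = e (psi y)) ∧ E11 a b c u h w n := by
  obtain ⟨a, h0, h1, h2⟩ := slp_of_equiv e chk11
  simp only [List.forall_mem_cons, evalW_powW, evalW_appL, evalW_cons, evalW_nil, mul_one, List.not_mem_nil,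
    IsEmpty.forall_iff, implies_true, and_true, ← mul_assoc] at h1 h2
  obtain ⟨k0, k1, k2, k3, k4, k5, k6, k7, k8, k9, k10, k11, k12, k13, k14, k15, k16, k17, k18, k19, k20, k21, k22,
    k23⟩ := h1
  obtain ⟨l0, l1, l2, l3⟩ := h2
  refine ⟨a 28, a 5, a 27, a 29, a 30, a 31, a 32, ?_, k1, k2, k3, k4, k5, k6, k7, k8, k9, k10, k11, k12, k13, k14,
    k15, k16, k17, k18, k19, k20, by simpa only [← mul_assoc] using k21, by simpa only [← mul_assoc] using k22, k23,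
    l0, l1, by simpa only [← mul_assoc] using l2, by simpa only [← mul_assoc] using l3⟩
  obtain ⟨x, hx⟩ := h0 0 (by norm_num)
  obtain ⟨y, hy⟩ := h0 1 (by norm_num)
  obtain ⟨v, hv⟩ := h0 2 (by norm_num)
  exact ⟨x * y * x * y * x * y * x * v * x * v * x * v, by simp only [map_mul, k0, hx, hy, hv]⟩

end Cfsg.Agent.J4T
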