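import Mathlib
import Cfsg.Agent.J4T.Ten

/-!
Finite checks in a Sylow subgroup of `M24` for the uniqueness of the subgroup of order `2 ^ 10`.
-/

set_option autoImplicit false
set_option linter.unusedSectionVars false

namespace Cfsg.Agent.J4T

open Cfsg.Agent.Spor Cfsg.Agent.Spor.MB Cfsg.Agent.Spor.J4C Cfsg.Agent.Inv.Fz Subgroup Split Ten

variable {G : Type*} [Group G]

theorem card_le_countLt [Finite G] {U : Subgroup G} {f : ℕ → G} {n : ℕ} {q : ℕ → Bool}
    (h : ∀ u ∈ U, ∃ x < n, f x = u ∧ q x = true) : Nat.card U ≤ countLt n q := by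
  classical
  rw [countLt_eq, ← SetLike.coe_sort_coe, Nat.card_coe_set_eq]
  refine (Set.ncard_le_ncard (t := ↑(((Finset.range n).filter fun i => q i = true).image f)) fun u hu => ?_).trans ?_
  · obtain ⟨x, hx, e, k⟩ := h u hu
    exact Finset.mem_coe.2 (Finset.mem_image.2 ⟨x, Finset.mem_filter.2 ⟨Finset.mem_range.2 hx, k⟩, e⟩)
  · rw [Set.ncard_coe_finset]
    exact Finset.card_image_le

theorem card_le_mul_of_key [Finite G] {K H : Subgroup G} {S : Finset ℕ} (κ : G → ℕ) (h1 : ∀ k ∈ K, κ k ∈ S)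
    (h2 : ∀ a ∈ K, ∀ b ∈ K, κ a = κ b → a⁻¹ * b ∈ H) : Nat.card K ≤ Nat.card ↥(K ⊓ H) * S.card := by
  classical
  have := Fintype.ofFinite K
  rw [Nat.card_eq_fintype_card, ← Finset.card_univ]
  refine Finset.card_le_mul_card_image_of_maps_to (f := fun k : K => κ k) (fun k _ => h1 k k.2) _ fun b _ => ?_
  rcases (Finset.univ.filter fun k : K => κ k = b).eq_empty_or_nonempty with e | ⟨a, ha⟩
  · rw [e]; exact Nat.zero_le _
  · rw [← Nat.card_eq_finsetCard]
    refine Nat.card_le_card_of_injective (fun k => (⟨(a : G)⁻¹ * k.1, K.mul_mem (K.inv_mem a.2) k.1.2,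
      h2 _ a.2 _ k.1.2 ((Finset.mem_filter.1 ha).2.trans (Finset.mem_filter.1 k.2).2.symm)⟩ : ↥(K ⊓ H))) ?_
    intro x y e
    exact Subtype.ext (Subtype.ext (mul_left_cancel (congrArg Subtype.val e)))

namespace Ten

/-- The restrictions to the octad of the elements of order at most two of the Sylow subgroup. -/
def ky (i : ℕ) : ℕ := List.getD
  [0xb8000002200380000000000a018820, 0x600140000000001c088457, 0xa000c00000000022070457,
   0x1c004400000000006028457, 0x2200380000000000a018457, 0x8000000600140000000001c0882e2,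
   0x8000000a000c000000000220702e2, 0x8000001c0044000000000060282e2, 0x8000002200380000000000a0182e2,
   0x10000000600140000000001c08dc01, 0x10000000a000c00000000022075c01, 0x10000001c00440000000000602dc01,
   0x10000001c00440000000000a01dc20, 0x10000002200380000000000602dc20, 0x10000002200380000000000a01dc01,
   0x1800000000004000000000040b95d1, 0x1800000020000000000000040b962e, 0x28000000000040000000002e010dd1,
   0x28000000200000000000002e010e2e, 0x700000004005c0000000000000c465, 0x700000004005c000000000020044a3,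
   0x88000002e00080000000000000b865, 0x88000002e0008000000000020038a3, 0xb8000000600140000000001c088820,
   0xb8000000a000c00000000022070820, 0xb8000001c004400000000006028820, 0xb8000001c00440000000000a018801,
   0xb80000022003800000000006028801] i 0

/-- The vectors of the span fixed by them. -/
def fm (i : ℕ) : ℕ := List.getD
  [0xffffffffffffffff, 0x9006069009606009, 0x9006096006906009, 0x9009066006609009, 0x9009099009909009,
   0x500a0a5005a0a005, 0x500a05a00a50a005, 0x50050aa00aa05005, 0x5005055005505005, 0x300c0c3003c0c003,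
   0x300c03c00c30c003, 0x30030cc00cc03003, 0x3333000000003333, 0x3003300330033003, 0x3003033003303003,
   0x1842248118422481, 0x1842184224812481, 0x1482284114822841, 0x1482148228412841, 0x1212848448482121,
   0x1122884444882211, 0x1212484884842121, 0x1122448888442211, 0xf00000f00f00000f, 0xf0000f0000f0000f,
   0xf00f00000000f00f, 0x3cc3000000003cc3, 0x3003c00cc00c3003] i 0

/-- The number of bits. -/
noncomputable def pc64 (D : ℕ) : ℕ := Spor.force D fun D => countLt 64 D.testBit

/-- The number of restrictions fixing a set of vectors. -/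
noncomputable def cnt (D : ℕ) : ℕ := Spor.force D fun D => countLt 28 fun i => Nat.beq (D &&& fm i) D

/-- The commutators of a fixed duad with the generators. -/
def uk (k : ℕ) : ℕ := List.getD [503, 417, 299, 395] k 0

theorem chk1 : Spor.allL P2L (fun c => bor (!Nat.beq (mul c c) idc) (!allLt 28 fun i => bor (!Nat.beq (key c) (ky i))
    (!allLt 64 fun j => bor (Nat.testBit (fm i) j) (!Nat.beq (va c (s6 j)) (s6 j))))) = true := by
  decide +kernel

theorem chkAB : ∀ a < 28, a ≠ 0 → ∀ b < 28, 28 * pc64 (fm a &&& fm b) < 128 ∨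
    cnt (fm a &&& fm b) * pc64 (fm a &&& fm b) < 128 ∧ (fm a &&& fm b = fm a ∨
      ∀ c < 28, fm a &&& fm b &&& fm c = fm a &&& fm b ∨ 28 * pc64 (fm a &&& fm b &&& fm c) < 128) := by
  decide +kernel

theorem chk5 : ∀ i < 16, eE i = idc ∨ eE i = gE 2 ∨ ∀ j < 64, va (eE i) (s6 j ^^^ uk 2) ≠ s6 j ^^^ uk 2 := by
  decide +kernel

theorem chk6 : Spor.allL P2L (fun c => bor (Nat.beq (key c) (key idc))
    (!allLt 4 fun k => comm c (gE k))) = true := by
  decide +kernel

theorem chk7 : allLt 4 (fun k => allRange 0 2048 fun x =>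
    bor (!Nat.beq (va (gE k) x) x) (bor (in6 x) (in6 (x ^^^ uk k)))) = true := by
  decide +kernel

theorem chk8 : ∀ k < 4, uk k = 24 ^^^ va (gE k) 24 ∧ uk k < 2048 ∧ va (gE k) 0 = 0 ∧
    ∀ m < 4, m ≠ k → va (gE k) (uk m) ≠ uk m := by
  decide +kernel

theorem chk9 : countLt 2048 (fun x => Nat.beq (va (code zB) x) x) = 64 := by
  rw [code_zB]
  decide +kernel

theorem code_zA' : code zA = gE 2 := code_zA.trans (by decide +kernel)

theorem fix_gE {k x : ℕ} (hk : k < 4) (hx : x < 2048) (h : va (gE k) x = x) :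
    in6 x = true ∨ in6 (x ^^^ uk k) = true := by
  have h1 := allRange_zero ((allLt_iff _ _).1 chk7 k hk) x hx
  rw [h, (nbeq_iff x x).2 rfl] at h1
  exact (bor_iff _ _).1 h1

theorem comb (S : ℕ → Prop) [DecidablePred S] : ∃ D : ℕ,
    (∀ j < 64, (∀ i < 28, S i → (fm i).testBit j = true) → D.testBit j = true) ∧
      ((Finset.range 28).filter S).card * pc64 D < 128 := by
  have h28 : ((Finset.range 28).filter S).card ≤ 28 := (Finset.card_filter_le _ _).trans (by simp)
  have key : ∀ D, (∀ i < 28, S i → D &&& fm i = D) → ((Finset.range 28).filter S).card ≤ cnt D := fun D h => by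
    rw [cnt, Spor.force_eq, countLt_eq]
    refine Finset.card_le_card fun i hi => ?_
    rw [Finset.mem_filter] at hi ⊢
    exact ⟨hi.1, (nbeq_iff _ _).2 (h i (Finset.mem_range.1 hi.1) hi.2)⟩
  by_cases ha : ∃ a < 28, a ≠ 0 ∧ S a
  swap
  · refine ⟨fm 0, fun j hj _ => (by decide +kernel : ∀ j < 64, (fm 0).testBit j = true) j hj, ?_⟩
    have : ((Finset.range 28).filter S).card ≤ 1 := Finset.card_le_one_iff_subset_singleton.2 ⟨0, fun i hi => by
      rw [Finset.mem_filter, Finset.mem_range] at hi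
      by_contra k
      exact ha ⟨i, hi.1, by simpa using k, hi.2⟩⟩
    rw [show pc64 (fm 0) = 64 by decide +kernel]
    omega
  obtain ⟨a, ha, ha0, sa⟩ := ha
  obtain ⟨b, hb, sb, hab⟩ : ∃ b < 28, S b ∧ (fm a &&& fm b = fm a → ∀ i < 28, S i → fm a &&& fm i = fm a) := by
    by_cases h : ∃ b < 28, S b ∧ fm a &&& fm b ≠ fm a
    · obtain ⟨b, hb, sb, h⟩ := h
      exact ⟨b, hb, sb, fun k => absurd k h⟩
    · exact ⟨a, ha, sa, fun _ i hi si => by_contra fun k => h ⟨i, hi, si, k⟩⟩
  have h2 : ∀ j < 64, (∀ i < 28, S i → (fm i).testBit j = true) → (fm a &&& fm b).testBit j = true :=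
    fun j _ h => by rw [Nat.testBit_and, h a ha sa, h b hb sb, Bool.and_self]
  rcases chkAB a ha ha0 b hb with h | ⟨h, h'⟩
  · exact ⟨_, h2, (Nat.mul_le_mul_right _ h28).trans_lt h⟩
  by_cases hc : ∀ i < 28, S i → fm a &&& fm b &&& fm i = fm a &&& fm b
  · exact ⟨_, h2, (Nat.mul_le_mul_right _ (key _ hc)).trans_lt h⟩
  push Not at hc
  obtain ⟨c, hc, sc, k⟩ := hc
  refine ⟨fm a &&& fm b &&& fm c, fun j hj h => by rw [Nat.testBit_and, h2 j hj h, h c hc sc, Bool.and_self], ?_⟩
  rcases h' with h' | h'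
  · exact absurd (by rw [h', hab h' c hc sc]) k
  · exact (Nat.mul_le_mul_right _ h28).trans_lt ((h' c hc).resolve_left k)

theorem lemX {F : Subgroup PG} (h1 : F ≤ clo gP2) (h2 : ∀ f ∈ F, f * f = 1) {c : ℕ}
    (hc : ∀ D : ℕ, (∀ j < 64, (∀ f ∈ F, va (code f) (s6 j) = s6 j) → D.testBit j = true) → c ≤ pc64 D) :
    Nat.card F * c < 128 * Nat.card ↥(F ⊓ Golay.Fix O0) := by
  classical
  obtain ⟨S, hS⟩ : ∃ S : ℕ → Prop, ∀ i, S i ↔ ∃ f ∈ F, key (code f) = ky i ∧
    ∀ j < 64, va (code f) (s6 j) = s6 j → (fm i).testBit j = true := ⟨_, fun _ => Iff.rfl⟩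
  obtain ⟨D, h3, h4⟩ := comb S
  have h5 := hc D fun j hj h => h3 j hj fun i _ hi => by
    obtain ⟨f, hf, -, k⟩ := (hS i).1 hi
    exact k j hj (h f hf)
  have h6 := card_le_mul_of_key (K := F) (H := Golay.Fix O0) (S := ((Finset.range 28).filter S).image ky)
    (fun f => key (code f)) (fun f hf => ?_) fun a ha b hb e => ?_
  · have h7 := h6.trans (Nat.mul_le_mul_left _ Finset.card_image_le)
    have h8 : 0 < Nat.card ↥(F ⊓ Golay.Fix O0) := Nat.card_pos
    calc Nat.card F * c ≤ _ := Nat.mul_le_mul h7 h5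
      _ < _ := by rw [mul_assoc, mul_comm 128]; exact Nat.mul_lt_mul_of_pos_left h4 h8
  · have k := (Spor.allL_iff _ _).1 chk1 _ (mem_P2L f (h1 hf))
    rw [← code_mul, h2 f hf, code_one, (nbeq_iff _ _).2 rfl, bor_iff, Bool.not_eq_true', Bool.not_eq_true',
      ← Bool.not_eq_true, ← Bool.not_eq_true, allLt_iff] at k
    simp only [not_true, false_or, not_forall, bor_iff, not_or, Bool.not_eq_true', Bool.not_eq_false, nbeq_iff,
      allLt_iff] at k
    obtain ⟨i, hi, k1, k2⟩ := k
    refine Finset.mem_image.2 ⟨i, ?_, k1.symm⟩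
    rw [Finset.mem_filter, Finset.mem_range, hS]
    refine ⟨hi, f, hf, k1, fun j hj e => ?_⟩
    have k3 := k2 j hj
    rw [e, (nbeq_iff _ _).2 rfl] at k3
    exact k3.resolve_right (by decide)
  · have k : ∀ f ∈ F, f ∈ M24 := fun f hf => CZ_le zA (P2_le_CZ (h1 hf))
    refine Golay.mem_Fix.2 ⟨mul_mem (inv_mem (k a ha)) (k b hb), fun p hp => ?_⟩
    rw [Equiv.Perm.mul_apply, ← apply_eq_of_key e hp, Equiv.Perm.inv_eq_iff_eq]

end Ten

end Cfsg.Agent.J4T
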